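import Cfsg.Agent.MonsterCent.Orbit

/-!
The permutation representation of the centraliser on blocks of frame classes.
-/

set_option autoImplicit false
set_option maxRecDepth 20000

namespace CfsgLib.MonsterCent

open Cfsg CfsgLib.Leech CfsgLib.Mathieu CfsgLib.Golay CfsgLib.StdCo0

/-- The data of the blocks. -/
structure Blk extends Cen where
  /-- The blocks. -/
  blocks : List (List ℕ)
  /-- The images of the generators on the blocks. -/
  bimg : List (List ℕ)

namespace Blk

variable (D : Blk)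

/-- The number of blocks. -/
abbrev m : ℕ := D.blocks.length

/-- A block. -/
def block (k : ℕ) : List ℕ := D.blocks.getD k []

/-- The block containing a list of classes. -/
def blockOf (S : List ℕ) : ℕ := D.blocks.findIdx fun b => S.all fun i => b.contains i

/-- The checks on the blocks. -/
def blockOK : Bool :=
  (List.range D.m).all (fun k =>
    !(D.block k).isEmpty && decide (D.block k).Nodup &&
      (D.block k).all (fun i => D.fr.contains i)) &&
  (List.range D.m).all (fun k' => (List.range D.m).all fun k'' => k' == k'' ||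
    (List.range D.m).all fun k =>
      decide (((D.block k').filter fun i => (D.block k'').contains i).length < (D.block k).length)) &&
  D.bimg.length == D.gens.length &&
  (List.range D.gens.length).all (fun n =>
    (List.range D.m).all fun k =>
      decide ((D.bimg.getD n []).getD k 0 < D.m) &&
        (D.block k).all fun i =>
          (D.block ((D.bimg.getD n []).getD k 0)).contains ((D.imgs.getD n []).getD i 0))

/-- All checks hold. -/
structure OK : Prop where
  base : Cen.OK D.toCen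
  blk : D.blockOK = true

/-- Blocks go to blocks. -/
def Permutes (δ : Co0) : Prop :=
  ∀ k < D.m, ∃ k' < D.m, ∀ i ∈ D.block k, D.toFix.act δ i ∈ D.block k'

/-- The image of a block. -/
noncomputable def bval (δ : Co0) (k : ℕ) : ℕ :=
  D.blockOf ((D.block k).map (D.toFix.act δ))

variable {D}
variable (hD : D.OK)
include hD

theorem OK.block_facts : (∀ k < D.m, D.block k ≠ [] ∧ (D.block k).Nodup) ∧
    (∀ k < D.m, ∀ i ∈ D.block k, i ∈ D.fr) ∧
    (∀ n < D.gens.length, ∀ k < D.m, (D.bimg.getD n []).getD k 0 < D.m ∧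
      ∀ i ∈ D.block k, (D.imgs.getD n []).getD i 0 ∈ D.block ((D.bimg.getD n []).getD k 0)) ∧
    (∀ k' < D.m, ∀ k'' < D.m, k' ≠ k'' → ∀ k < D.m,
      ((D.block k').filter fun i => (D.block k'').contains i).length < (D.block k).length) := by
  have h := hD.blk
  simp only [blockOK, Bool.and_eq_true, List.all_eq_true, List.mem_range, beq_iff_eq,
    List.contains_eq_mem, decide_eq_true_eq, Bool.not_eq_true', Bool.or_eq_true] at h
  obtain ⟨⟨⟨h1, h2⟩, -⟩, h3⟩ := h
  refine ⟨fun k hk => ⟨?_, (h1 k hk).1.2⟩, fun k hk => (h1 k hk).2, fun n hn k hk => h3 n hn k hk,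
    fun a ha b hb hne k hk => ?_⟩
  · have := (h1 k hk).1.1
    intro e; rw [e] at this; simp at this
  · simpa [List.contains_eq_mem] using (h2 a ha b hb).resolve_left hne k hk

theorem OK.permutes {δ : Co0} (hδ : δ ∈ D.toFix.cen) : D.Permutes δ := by
  obtain ⟨-, hmem, hgen, -⟩ := hD.block_facts
  refine hD.base.induction (S := D.Permutes) ?_ ?_ ?_ hδ
  · intro k hk
    refine ⟨k, hk, fun i hi => ?_⟩
    rw [hD.base.toOK.act_one (hD.base.fr_lt (hmem k hk i hi))]
    exact hi
  · intro a _ b hb pa pb k hk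
    obtain ⟨k', hk', h1⟩ := pb k hk
    obtain ⟨k'', hk'', h2⟩ := pa k' hk'
    exact ⟨k'', hk'', fun i hi => by rw [hD.base.toOK.act_mul hb]; exact h2 _ (h1 i hi)⟩
  · intro w hw k hk
    obtain ⟨n, hn, rfl⟩ := List.getElem_of_mem hw
    refine ⟨_, (hgen n hn k hk).1, fun i hi => ?_⟩
    have e := hD.base.gen_act hn (hmem k hk i hi)
    rw [List.getD_eq_getElem?_getD, List.getElem?_eq_getElem hn, Option.getD_some] at e
    rw [e]
    exact (hgen n hn k hk).2 i hi

theorem OK.act_injOn {δ : Co0} (hδ : δ ∈ D.toFix.cen) {i j : ℕ} (hi : i < 2 ^ D.r)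
    (hj : j < 2 ^ D.r) (h : D.toFix.act δ i = D.toFix.act δ j) : i = j := by
  have := congrArg (D.toFix.act δ⁻¹) h
  rwa [← hD.base.toOK.act_mul hδ, ← hD.base.toOK.act_mul hδ, inv_mul_cancel,
    hD.base.toOK.act_one hi, hD.base.toOK.act_one hj] at this

/-- A block is determined by containing the image of a block. -/
theorem OK.block_unique {δ : Co0} (hδ : δ ∈ D.toFix.cen) {k k' k'' : ℕ} (hk : k < D.m)
    (hk' : k' < D.m) (hk'' : k'' < D.m) (h' : ∀ i ∈ D.block k, D.toFix.act δ i ∈ D.block k')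
    (h'' : ∀ i ∈ D.block k, D.toFix.act δ i ∈ D.block k'') : k' = k'' := by
  obtain ⟨hne, hmem, -, hint⟩ := hD.block_facts
  by_contra hd
  have hnd : ((D.block k).map (D.toFix.act δ)).Nodup :=
    List.Nodup.map_on (fun i hi j hj e => hD.act_injOn hδ (hD.base.fr_lt (hmem k hk i hi))
      (hD.base.fr_lt (hmem k hk j hj)) e) (hne k hk).2
  have hsub : (D.block k).map (D.toFix.act δ) ⊆
      (D.block k').filter fun i => (D.block k'').contains i := by
    intro x hx
    obtain ⟨i, hi, rfl⟩ := List.mem_map.1 hx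
    exact List.mem_filter.2 ⟨h' i hi, by simpa using h'' i hi⟩
  have hle := (List.subperm_of_subset hnd hsub).length_le
  rw [List.length_map] at hle
  exact absurd (hint k' hk' k'' hk'' hd k hk) (by omega)

theorem OK.bval_spec {δ : Co0} (hδ : δ ∈ D.toFix.cen) {k : ℕ} (hk : k < D.m) :
    D.bval δ k < D.m ∧ ∀ i ∈ D.block k, D.toFix.act δ i ∈ D.block (D.bval δ k) := by
  obtain ⟨k', hk', h⟩ := hD.permutes hδ k hk
  have hget : ∀ n (hn : n < D.m), D.blocks[n] = D.block n := fun n hn => by
    rw [block, List.getD_eq_getElem?_getD, List.getElem?_eq_getElem hn, Option.getD_some]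
  have hlt : D.bval δ k < D.m := by
    rw [bval, blockOf, m, List.findIdx_lt_length]
    refine ⟨D.blocks[k'], List.getElem_mem hk', ?_⟩
    rw [hget k' hk']
    simpa [List.all_eq_true] using h
  refine ⟨hlt, fun i hi => ?_⟩
  have key : ∀ (q : List ℕ → Bool) (L : List (List ℕ)) (hn : L.findIdx q < L.length),
      q L[L.findIdx q] = true := fun q L hn => List.findIdx_getElem
  have := key (fun b => ((D.block k).map (D.toFix.act δ)).all fun i => b.contains i) D.blocks hlt
  rw [List.all_eq_true] at this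
  have h2 := this _ (List.mem_map_of_mem hi)
  rw [List.contains_eq_mem, decide_eq_true_eq] at h2
  rwa [← hget _ hlt]

theorem OK.bval_eq {δ : Co0} (hδ : δ ∈ D.toFix.cen) {k k' : ℕ} (hk : k < D.m) (hk' : k' < D.m)
    (h : ∀ i ∈ D.block k, D.toFix.act δ i ∈ D.block k') : D.bval δ k = k' :=
  hD.block_unique hδ hk (hD.bval_spec hδ hk).1 hk' (hD.bval_spec hδ hk).2 h

theorem OK.bval_mul {δ ε : Co0} (hδ : δ ∈ D.toFix.cen) (hε : ε ∈ D.toFix.cen) {k : ℕ}
    (hk : k < D.m) : D.bval (δ * ε) k = D.bval δ (D.bval ε k) := by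
  obtain ⟨h1, h2⟩ := hD.bval_spec hε hk
  refine hD.bval_eq (mul_mem hδ hε) hk (hD.bval_spec hδ h1).1 fun i hi => ?_
  rw [hD.base.toOK.act_mul hε]
  exact (hD.bval_spec hδ h1).2 _ (h2 _ hi)

theorem OK.bval_one {k : ℕ} (hk : k < D.m) : D.bval 1 k = k :=
  hD.bval_eq (one_mem _) hk hk fun i hi => by
    rw [hD.base.toOK.act_one (hD.base.fr_lt (hD.block_facts.2.1 k hk i hi))]
    exact hi

/-- The permutation of the blocks. -/
noncomputable def blockPerm (δ : D.toFix.cen) : Equiv.Perm (Fin D.m) where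
  toFun k := ⟨D.bval δ.1 k.1, (hD.bval_spec δ.2 k.2).1⟩
  invFun k := ⟨D.bval δ.1⁻¹ k.1, (hD.bval_spec (inv_mem δ.2) k.2).1⟩
  left_inv k := Fin.ext (by
    show D.bval δ.1⁻¹ (D.bval δ.1 k.1) = k.1
    rw [← hD.bval_mul (inv_mem δ.2) δ.2 k.2, inv_mul_cancel, hD.bval_one k.2])
  right_inv k := Fin.ext (by
    show D.bval δ.1 (D.bval δ.1⁻¹ k.1) = k.1
    rw [← hD.bval_mul δ.2 (inv_mem δ.2) k.2, mul_inv_cancel, hD.bval_one k.2])

/-- The representation on the blocks. -/
noncomputable def rho : D.toFix.cen →* Equiv.Perm (Fin D.m) :=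
  MonoidHom.mk' (blockPerm hD) fun a b => Equiv.ext fun k =>
    Fin.ext (hD.bval_mul a.2 b.2 k.2)

theorem rho_apply (δ : D.toFix.cen) (k : Fin D.m) :
    ((rho hD δ k : Fin D.m) : ℕ) = D.bval δ.1 k.1 := rfl

/-- An element fixing all fixed classes acts trivially on the blocks. -/
theorem rho_eq_one {δ : D.toFix.cen}
    (h : ∀ i < 2 ^ D.r, Cg (δ.1 • D.toFix.comb i) (D.toFix.comb i)) : rho hD δ = 1 := by
  refine Equiv.ext fun k => Fin.ext ?_
  rw [rho_apply]
  refine hD.bval_eq δ.2 k.2 k.2 fun i hi => ?_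
  have hi' := hD.base.fr_lt (hD.block_facts.2.1 k.1 k.2 i hi)
  rw [Fix.act, hD.base.toOK.idx_cg (h _ hi'), hD.base.toOK.idx_comb hi']
  exact hi

omit hD

/-- The permutation of a word of generators on the blocks. -/
def wordPerm (D : Blk) : List ℕ → ℕ → ℕ
  | [], k => k
  | n :: ns, k => (D.bimg.getD n []).getD (wordPerm D ns k) 0

/-- A table of blocks is the image of a word of generators. -/
def targetOK (D : Blk) (t : List ℕ) (w : List ℕ) : Bool :=
  w.all (fun n => decide (n < D.gens.length)) &&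
    (List.range D.m).all fun k => D.wordPerm w k == t.getD k 0

include hD

theorem OK.exists_of_target {t w : List ℕ} (h : targetOK D t w = true) :
    ∃ δ : D.toFix.cen, ∀ k : Fin D.m, ((rho hD δ k : Fin D.m) : ℕ) = t.getD k 0 := by
  simp only [targetOK, Bool.and_eq_true, List.all_eq_true, decide_eq_true_eq, List.mem_range,
    beq_iff_eq] at h
  obtain ⟨hw, hv⟩ := h
  have key : ∀ v : List ℕ, (∀ n ∈ v, n < D.gens.length) →
      ∃ δ : D.toFix.cen, ∀ k < D.m, D.bval δ.1 k = D.wordPerm v k ∧ D.wordPerm v k < D.m := by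
    intro v hv
    induction v with
    | nil => exact ⟨1, fun k hk => ⟨hD.bval_one hk, hk⟩⟩
    | cons n v ih =>
      obtain ⟨δ, hδ⟩ := ih fun a ha => hv a (List.mem_cons_of_mem _ ha)
      have hn := hv n List.mem_cons_self
      have hwn : D.gens.getD n [] ∈ D.gens := by
        rw [List.getD_eq_getElem?_getD, List.getElem?_eq_getElem hn, Option.getD_some]
        exact List.getElem_mem hn
      refine ⟨⟨_, hD.base.gen_mem hwn⟩ * δ, fun k hk => ?_⟩
      obtain ⟨e, hlt⟩ := hδ k hk
      obtain ⟨-, hmem, hgen, -⟩ := hD.block_facts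
      refine ⟨?_, (hgen n hn _ hlt).1⟩
      rw [Subgroup.coe_mul, hD.bval_mul (hD.base.gen_mem hwn) δ.2 hk, e, wordPerm]
      refine hD.bval_eq (hD.base.gen_mem hwn) hlt (hgen n hn _ hlt).1 fun i hi => ?_
      rw [hD.base.gen_act hn (hmem _ hlt i hi)]
      exact (hgen n hn _ hlt).2 i hi
  obtain ⟨δ, hδ⟩ := key w hw
  exact ⟨δ, fun k => by rw [rho_apply, (hδ k.1 k.2).1, hv k.1 k.2]⟩

end Blk

end CfsgLib.MonsterCent
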