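import Cfsg.Agent.MonsterCent.DataSeven

/-!
Checks on the data of one case.
-/

set_option autoImplicit false
set_option maxRecDepth 100000

namespace CfsgLib.MonsterCent.Seven

open CfsgLib.Leech CfsgLib.Mathieu CfsgLib.Golay

theorem gens_check_high :
    (List.range' 10 (cenData.gens.length - 10)).all (Cen.genOK cenData) = true := by decide +kernel

end CfsgLib.MonsterCent.Seven
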