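import Cfsg.Agent.MonsterCent.DataThree

/-!
Checks on the data of one case.
-/

set_option autoImplicit false
set_option maxRecDepth 100000

namespace CfsgLib.MonsterCent.Three

open CfsgLib.Leech CfsgLib.Mathieu CfsgLib.Golay

theorem gens_check_form : cenData.gensFormOK = true := by decide +kernel

end CfsgLib.MonsterCent.Three
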