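import Cfsg.Agent.MonsterCent.DataThree

/-!
Checks on the data of one case.
-/

set_option autoImplicit false
set_option maxRecDepth 100000

namespace CfsgLib.MonsterCent.Three

open CfsgLib.Leech CfsgLib.Mathieu CfsgLib.Golay

theorem cent_check : cenData.centOK = true := by decide +kernel

theorem cover_check : cenData.coverOK = true := by decide +kernel

theorem fixc_check : cenData.fixCOK = true := by decide +kernel

theorem stab_check : cenData.stabIn = true := by decide +kernel

theorem orb_check : cenData.orbOK = true := by decide +kernel

theorem blk_check : blkData.blockOK = true := by decide +kernel

theorem target_check : targets.all (fun x => Blk.targetOK blkData x.1 x.2) = true := by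
  decide +kernel

end CfsgLib.MonsterCent.Three
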