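import Cfsg.Agent.MonsterCent.Eval
import Cfsg.Agent.Mathieu.FixList

/-!
The classes fixed by a permutation of odd prime order, coordinatised by a list of fixed vectors.
-/

set_option autoImplicit false
set_option maxRecDepth 20000

namespace CfsgLib.MonsterCent

open Cfsg CfsgLib.Leech CfsgLib.Mathieu CfsgLib.Golay CfsgLib.StdCo0

/-- The generators of the lattice as lists. -/
def genL : List (List ℤ) := genList.map toL

/-- Combination of vectors by the bits of a number. -/
def combV : List leechLattice → ℕ → leechLattice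
  | [], _ => 0
  | b :: bs, i => (if i % 2 = 1 then b else 0) + combV bs (i / 2)

/-- The sum of two lists. -/
def addL (x y : List ℤ) : List ℤ :=
  forceL x fun x => forceL y fun y => (List.range 24).map fun i => nth x i + nth y i

theorem addL_eq (x y : List ℤ) : addL x y = (List.range 24).map fun i => nth x i + nth y i := by
  rw [addL, forceL_eq, forceL_eq]

/-- The zero list. -/
def zeroL : List ℤ := (List.range 24).map fun _ => 0

/-- Combination of lists by the bits of a number. -/
def combL : List (List ℤ) → ℕ → List ℤ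
  | [], _ => zeroL
  | b :: bs, i => addL (if i % 2 = 1 then b else zeroL) (combL bs (i / 2))

theorem toL_zero : toL ((0 : leechLattice) : GolayPt → ℤ) = zeroL := rfl

theorem toL_add (u v : leechLattice) :
    toL ((u + v : leechLattice) : GolayPt → ℤ) = addL (toL (u : GolayPt → ℤ)) (toL (v : GolayPt → ℤ)) :=
  (addL_eq _ _).symm ▸ List.map_congr_left fun i hi => by
    rw [show nth (toL (u : GolayPt → ℤ)) i = _ from nth_range _ (List.mem_range.1 hi),
      show nth (toL (v : GolayPt → ℤ)) i = _ from nth_range _ (List.mem_range.1 hi),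
      AddSubgroup.coe_add, Pi.add_apply]

/-- A canonical list. -/
def okL (x : List ℤ) : Bool := memL x && x.length == 24

theorem toL_vecL {x : List ℤ} (h : okL x = true) : toL ((vecL x : leechLattice) : GolayPt → ℤ) = x := by
  rw [okL, Bool.and_eq_true, beq_iff_eq] at h
  rw [coe_vecL h.1]
  refine List.ext_getElem (by simp [toL, h.2]) fun i h1 h2 => ?_
  have hi : i < 24 := h.2 ▸ h2
  simp [toL, ofL, nth, p2i_i2p i hi, List.getD_eq_getElem?_getD, h2]

theorem toL_combV {bs : List (List ℤ)} (hb : bs.all okL = true) : ∀ i,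
    toL ((combV (bs.map vecL) i : leechLattice) : GolayPt → ℤ) = combL bs i := by
  induction bs with
  | nil => exact fun i => toL_zero
  | cons b bs ih =>
    intro i
    rw [List.all_cons, Bool.and_eq_true] at hb
    rw [List.map_cons, combV, combL, toL_add, ih hb.2]
    split_ifs
    · rw [toL_vecL hb.1]
    · rw [toL_zero]

theorem combV_xor : ∀ (bs : List leechLattice) (i j : ℕ),
    Cg (combV bs i + combV bs j) (combV bs (i ^^^ j))
  | [], _, _ => by simpa [combV] using Cg.refl (0 : leechLattice)
  | b :: bs, i, j => by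
    have h2 : (i ^^^ j) / 2 = i / 2 ^^^ j / 2 := by
      apply Nat.eq_of_testBit_eq; intro k
      simp [Nat.testBit_div_two, Nat.testBit_xor]
    have h0 : (i ^^^ j) % 2 = (i % 2 + j % 2) % 2 := by
      have e := Nat.testBit_xor i j 0
      simp only [Nat.testBit_zero] at e
      rcases Nat.mod_two_eq_zero_or_one i with a | a <;>
        rcases Nat.mod_two_eq_zero_or_one j with c | c <;>
        rcases Nat.mod_two_eq_zero_or_one (i ^^^ j) with d | d <;> simp_all
    simp only [combV, h2, h0]
    rw [add_add_add_comm]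
    refine Cg.add ?_ (combV_xor bs _ _)
    rcases Nat.mod_two_eq_zero_or_one i with a | a <;>
      rcases Nat.mod_two_eq_zero_or_one j with c | c <;> simp only [a, c] <;> norm_num
    all_goals first | exact Cg.refl _ | exact cg_add_self b

theorem combV_zero : ∀ bs : List leechLattice, combV bs 0 = 0
  | [] => rfl
  | b :: bs => by simp [combV, combV_zero bs]

/-- The data of a permutation of odd prime order and of the classes it fixes. -/
structure Fix where
  /-- The order. -/
  p : ℕ
  /-- The rank. -/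
  r : ℕ
  /-- The tables of the powers. -/
  pw : List (List ℕ)
  /-- The fixed vectors spanning the fixed classes. -/
  bs : List (List ℤ)
  /-- The combination of each key. -/
  ix : List ℕ
  /-- The combinations of the projected generators. -/
  dec : List ℕ
  /-- A short representative of each class. -/
  rep : List (List ℤ)
  /-- The frame classes. -/
  fr : List ℕ

namespace Fix

variable (D : Fix)

/-- The table of the `i`-th power. -/
def pow (i : ℕ) : List ℕ := D.pw.getD i idTab

/-- The inverse table of the `i`-th power. -/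
def powInv (i : ℕ) : List ℕ := D.pow ((D.p - i) % D.p)

/-- The sum over the orbit of a vector, on lists. -/
def normL (x : List ℤ) : List ℤ :=
  ((List.range D.p).map fun i => permL (D.powInv i) x).foldr addL zeroL

/-- The representative of a class. -/
def repL (i : ℕ) : List ℤ := D.rep.getD i zeroL

/-- The combination of a class. -/
def idxL (x : List ℤ) : ℕ := D.ix.getD (keyL D.bs x) (2 ^ D.r)

/-- The checks on the data. -/
def fixOK : Bool :=
  decide (2 ≤ D.p) && D.p % 2 == 1 && D.pw.length == D.p && D.pw.all tabInM24 &&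
  (D.pow 0 == idTab) &&
  (List.range D.p).all (fun i => compTab (D.pow 1) (D.pow i) == D.pow ((i + 1) % D.p)) &&
  (List.range D.p).all (fun i => compTab (D.pow i) (D.powInv i) == idTab) &&
  (D.pow 1 != idTab) &&
  D.bs.length == D.r && D.bs.all okL &&
  D.bs.all (fun b => cgL (permL (D.powInv 1) b) b)

/-- The checks on the projections of the generators. -/
def decOK : Bool :=
  (List.range genL.length).all (fun n =>
    decide (D.dec.getD n 0 < 2 ^ D.r) &&
      cgL (D.normL (genL.getD n zeroL)) (combL D.bs (D.dec.getD n 0)))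

/-- The combinations have distinct keys. -/
def ixOK : Bool := (List.range (2 ^ D.r)).all fun i => D.idxL (combL D.bs i) == i

/-- The checks on the representatives. -/
def repOK : Bool :=
  (List.range (2 ^ D.r)).all fun i =>
    okL (D.repL i) && cgL (D.repL i) (combL D.bs i) &&
      if D.fr.contains i then dotL (D.repL i) (D.repL i) == 64
      else decide (dotL (D.repL i) (D.repL i) ≤ 32) || dotL (D.repL i) (D.repL i) % 32 == 16

/-- All checks hold. -/
structure OK : Prop where
  fix : D.fixOK = true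
  dec : D.decOK = true
  ix : D.ixOK = true
  rep : D.repOK = true

/-- The combination as a vector. -/
noncomputable def comb (i : ℕ) : leechLattice := combV (D.bs.map vecL) i

/-- The combination of a class. -/
noncomputable def idx (v : leechLattice) : ℕ := D.idxL (toL (v : GolayPt → ℤ))

open Classical in
/-- The permutation. -/
noncomputable def sig : M24 :=
  if h : ∃ g : M24, toTab g.1 = D.pow 1 then h.choose else 1

/-- The permutation as an automorphism. -/
noncomputable def el : Co0 := permHom D.sig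

/-- The classes fixed by the permutation. -/
def Fixed (v : leechLattice) : Prop := Cg (D.el • v) v


/-- The sum over the orbit. -/
noncomputable def norm (D : Fix) : leechLattice →+ leechLattice :=
  ∑ i ∈ Finset.range D.p, addHom (D.el ^ i)

theorem norm_apply (D : Fix) (v : leechLattice) :
    D.norm v = ∑ i ∈ Finset.range D.p, D.el ^ i • v := by
  simp only [norm, AddMonoidHom.finsetSum_apply]
  rfl

end Fix

variable {D : Fix} (hD : D.OK)
include hD

namespace Fix

theorem OK.facts : 2 ≤ D.p ∧ D.p % 2 = 1 ∧ D.pw.length = D.p ∧ D.pw.all tabInM24 = true ∧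
    D.pow 0 = idTab ∧ (∀ i < D.p, compTab (D.pow 1) (D.pow i) = D.pow ((i + 1) % D.p)) ∧
    (∀ i < D.p, compTab (D.pow i) (D.powInv i) = idTab) ∧ D.pow 1 ≠ idTab ∧
    D.bs.length = D.r ∧ D.bs.all okL = true ∧
    (∀ b ∈ D.bs, cgL (permL (D.powInv 1) b) b = true) := by
  have h := hD.fix
  simp only [fixOK, Bool.and_eq_true, decide_eq_true_eq, beq_iff_eq, bne_iff_ne, ne_eq] at h
  obtain ⟨⟨⟨⟨⟨⟨⟨⟨⟨⟨a, b⟩, c⟩, d⟩, e⟩, f⟩, g⟩, k⟩, l⟩, m⟩, n⟩ := h
  simp only [List.all_eq_true, List.mem_range, beq_iff_eq] at f g n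
  exact ⟨a, b, c, d, e, f, g, k, l, m, n⟩

theorem OK.pow_mem {i : ℕ} (hi : i < D.p) : tabInM24 (D.pow i) = true := by
  obtain ⟨-, -, hl, hall, -⟩ := hD.facts
  have h : i < D.pw.length := hl ▸ hi
  rw [pow, List.getD_eq_getElem?_getD, List.getElem?_eq_getElem h, Option.getD_some]
  exact List.all_eq_true.1 hall _ (List.getElem_mem h)

theorem OK.toTab_sig : toTab D.sig.1 = D.pow 1 := by
  have h : ∃ g : M24, toTab g.1 = D.pow 1 := by
    obtain ⟨g, hg, e⟩ := rep_of_tabInM24 (hD.pow_mem (i := 1) hD.facts.1)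
    exact ⟨⟨g, hg⟩, e⟩
  rw [sig, dif_pos h]
  exact h.choose_spec

theorem OK.toTab_pow : ∀ i, toTab (D.sig ^ i).1 = D.pow (i % D.p)
  | 0 => by rw [Nat.zero_mod, hD.facts.2.2.2.2.1, _root_.pow_zero]; exact toTab_one
  | i + 1 => by
    have hlt : i % D.p < D.p := Nat.mod_lt _ (by have := hD.facts.1; omega)
    rw [pow_succ', Subgroup.coe_mul, toTab_mul, hD.toTab_sig, OK.toTab_pow i,
      hD.facts.2.2.2.2.2.1 _ hlt, Nat.mod_add_mod]

theorem OK.sig_pow : D.sig ^ D.p = 1 := by
  apply Subtype.ext
  apply toTab_injective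
  rw [hD.toTab_pow, Nat.mod_self, hD.facts.2.2.2.2.1]
  exact toTab_one.symm

theorem OK.sig_ne_one : D.sig ≠ 1 := fun h => by
  have := hD.toTab_sig
  rw [h] at this
  exact hD.facts.2.2.2.2.2.2.2.1 (this.symm.trans toTab_one)

theorem OK.toL_el_pow (i : ℕ) (hi : i < D.p) (v : leechLattice) :
    toL ((D.el ^ i • v : leechLattice) : GolayPt → ℤ) = permL (D.powInv i) (toL (v : GolayPt → ℤ)) := by
  have hm : MRep (D.el ^ i) 0 (D.pow i) := by
    refine ⟨(0, D.sig ^ i), ?_, ?_, by rw [hD.toTab_pow, Nat.mod_eq_of_lt hi]⟩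
    · show signs 0 _ * permHom (D.sig ^ i) = _
      rw [map_pow, el, signs_zero, one_mul]
    · show toMask (support₂ (0 : GolayPt → ZMod 2)) = 0
      rw [support₂_zero, ← ofMask_zero, toMask_ofMask (by norm_num)]
  have hmem := hD.pow_mem (i := (D.p - i) % D.p) (Nat.mod_lt _ (by omega))
  simp only [tabInM24, Bool.and_eq_true, beq_iff_eq, List.all_eq_true, decide_eq_true_eq] at hmem
  rw [toL_mrep hm (hD.facts.2.2.2.2.2.2.1 i hi) ⟨hmem.1.1.1, hmem.1.1.2⟩]
  exact List.map_congr_left fun j _ => if_neg (by simp)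

theorem OK.toL_comb (i : ℕ) : toL ((D.comb i : leechLattice) : GolayPt → ℤ) = combL D.bs i :=
  toL_combV hD.facts.2.2.2.2.2.2.2.2.2.1 i

theorem OK.bs_mem : D.bs.all memL = true := by
  have h := hD.facts.2.2.2.2.2.2.2.2.2.1
  simp only [List.all_eq_true, okL, Bool.and_eq_true] at h ⊢
  exact fun b hb => (h b hb).1

theorem OK.idx_cg {u v : leechLattice} (h : Cg u v) : D.idx u = D.idx v :=
  congrArg (fun k => D.ix.getD k (2 ^ D.r)) (keyOf_cg hD.bs_mem h)

theorem OK.idx_comb {i : ℕ} (hi : i < 2 ^ D.r) : D.idx (D.comb i) = i := by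
  rw [idx, hD.toL_comb]
  have := List.all_eq_true.1 hD.ix i (List.mem_range.2 hi)
  simpa using this

theorem OK.comb_xor (i j : ℕ) : Cg (D.comb i + D.comb j) (D.comb (i ^^^ j)) := combV_xor _ _ _

theorem OK.fixed_comb (i : ℕ) : D.Fixed (D.comb i) := by
  suffices ∀ (bs : List (List ℤ)), bs.all okL = true →
      (∀ b ∈ bs, cgL (permL (D.powInv 1) b) b = true) → ∀ i, D.Fixed (combV (bs.map vecL) i) from
    this _ hD.facts.2.2.2.2.2.2.2.2.2.1 hD.facts.2.2.2.2.2.2.2.2.2.2 i
  intro bs
  induction bs with
  | nil => intro _ _ i; show Cg (D.el • (0 : leechLattice)) 0; rw [co0_map_zero]; exact Cg.refl _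
  | cons b bs ih =>
    intro hall hfix i
    rw [List.all_cons, Bool.and_eq_true] at hall
    show Cg (D.el • _) _
    rw [List.map_cons, combV, co0_map_add]
    refine Cg.add ?_ (ih hall.2 (fun c hc => hfix c (List.mem_cons_of_mem _ hc)) (i / 2))
    split_ifs
    · refine cg_of_cgL ?_
      rw [← _root_.pow_one D.el, hD.toL_el_pow 1 hD.facts.1, toL_vecL hall.1]
      exact hfix b List.mem_cons_self
    · rw [co0_map_zero]; exact Cg.refl _

theorem OK.toL_norm (v : leechLattice) :
    toL ((D.norm v : leechLattice) : GolayPt → ℤ) = D.normL (toL (v : GolayPt → ℤ)) := by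
  rw [norm_apply, normL]
  have key : ∀ L : List ℕ, (∀ i ∈ L, i < D.p) →
      toL (((L.map fun i => D.el ^ i • v).sum : leechLattice) : GolayPt → ℤ) =
        (L.map fun i => permL (D.powInv i) (toL (v : GolayPt → ℤ))).foldr addL zeroL := by
    intro L hL
    induction L with
    | nil => exact toL_zero
    | cons a L ih =>
      rw [List.map_cons, List.sum_cons, List.map_cons, List.foldr_cons, toL_add,
        ih fun i hi => hL i (List.mem_cons_of_mem _ hi), hD.toL_el_pow a (hL a List.mem_cons_self)]
  rw [show ∑ i ∈ Finset.range D.p, D.el ^ i • v = ((List.range D.p).map fun i => D.el ^ i • v).sum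
    from rfl]
  exact key _ fun i hi => List.mem_range.1 hi

theorem OK.norm_comb (v : leechLattice) : ∃ i < 2 ^ D.r, Cg (D.norm v) (D.comb i) := by
  let H : AddSubgroup (GolayPt → ℤ) :=
    { carrier := {x | ∃ (hx : x ∈ leechLattice), ∃ i < 2 ^ D.r, Cg (D.norm ⟨x, hx⟩) (D.comb i)}
      zero_mem' := ⟨leechLattice.zero_mem, 0, Nat.two_pow_pos _, by
        show Cg (D.norm 0) _
        rw [map_zero, Fix.comb, combV_zero]; exact Cg.refl _⟩
      add_mem' := by
        rintro x y ⟨hx, i, hi, a⟩ ⟨hy, j, hj, b⟩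
        refine ⟨leechLattice.add_mem hx hy, i ^^^ j, Nat.xor_lt_two_pow hi hj, ?_⟩
        show Cg (D.norm (⟨x, hx⟩ + ⟨y, hy⟩)) _
        rw [map_add]
        exact (a.add b).trans (hD.comb_xor i j)
      neg_mem' := by
        rintro x ⟨hx, i, hi, a⟩
        refine ⟨leechLattice.neg_mem hx, i, hi, ?_⟩
        show Cg (D.norm (-⟨x, hx⟩)) _
        rw [map_neg]
        exact (cg_neg _).trans a }
  have hH : leechLattice ≤ H := leech_le_of_genList fun x hx => by
    obtain ⟨n, hn, rfl⟩ := List.getElem_of_mem hx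
    have hl : n < genL.length := by rw [genL, List.length_map]; exact hn
    have h := List.all_eq_true.1 hD.dec n (List.mem_range.2 hl)
    simp only [Bool.and_eq_true, decide_eq_true_eq] at h
    refine ⟨genList_mem _ hx, _, h.1, cg_of_cgL ?_⟩
    rw [hD.toL_norm, hD.toL_comb]
    convert h.2 using 3
    simp [genL, List.getD_eq_getElem?_getD, hn]
  obtain ⟨hx, i, hi, a⟩ := hH v.2
  exact ⟨i, hi, a⟩

theorem OK.exists_comb {v : leechLattice} (hv : D.Fixed v) :
    ∃ i < 2 ^ D.r, Cg v (D.comb i) := by
  obtain ⟨i, hi, h⟩ := hD.norm_comb v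
  refine ⟨i, hi, Cg.trans ?_ h⟩
  have hp : ∀ k : ℕ, Cg (D.el ^ k • v) v := by
    intro k
    induction k with
    | zero => rw [_root_.pow_zero, one_smul]; exact Cg.refl _
    | succ k ih => rw [pow_succ', mul_smul]; exact (ih.smul _).trans hv
  have hsum : ∀ n : ℕ, Cg (∑ k ∈ Finset.range n, D.el ^ k • v) (if n % 2 = 1 then v else 0) := by
    intro n
    induction n with
    | zero => simpa using Cg.refl (0 : leechLattice)
    | succ n ih =>
      rw [Finset.sum_range_succ]
      refine (ih.add (hp n)).trans ?_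
      rcases Nat.mod_two_eq_zero_or_one n with e | e
      · rw [if_neg (by omega), if_pos (by omega), zero_add]; exact Cg.refl _
      · rw [if_pos e, if_neg (by omega)]; exact cg_add_self v
  have := hsum D.p
  rw [if_pos hD.facts.2.1, ← norm_apply] at this
  exact this.symm

theorem OK.cg_comb_idx {v : leechLattice} (hv : D.Fixed v) :
    Cg v (D.comb (D.idx v)) ∧ D.idx v < 2 ^ D.r := by
  obtain ⟨i, hi, h⟩ := hD.exists_comb hv
  rw [hD.idx_cg h, hD.idx_comb hi]
  exact ⟨h, hi⟩

theorem OK.comb_inj {i j : ℕ} (hi : i < 2 ^ D.r) (hj : j < 2 ^ D.r)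
    (h : Cg (D.comb i) (D.comb j)) : i = j := by
  rw [← hD.idx_comb hi, hD.idx_cg h, hD.idx_comb hj]

theorem OK.cg_rep {i : ℕ} (hi : i < 2 ^ D.r) :
    okL (D.repL i) = true ∧ Cg (vecL (D.repL i)) (D.comb i) := by
  have h := List.all_eq_true.1 hD.rep i (List.mem_range.2 hi)
  simp only [Bool.and_eq_true] at h
  refine ⟨h.1.1, cg_of_cgL ?_⟩
  rw [toL_vecL h.1.1, hD.toL_comb]
  exact h.1.2

theorem OK.frame_iff {i : ℕ} (hi : i < 2 ^ D.r) :
    Rel (D.comb i) (axisVec none) ↔ i ∈ D.fr := by
  obtain ⟨hok, hcg⟩ := hD.cg_rep hi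
  have h := List.all_eq_true.1 hD.rep i (List.mem_range.2 hi)
  simp only [Bool.and_eq_true] at h
  obtain ⟨-, hn⟩ := h
  have hs : sqNorm ((vecL (D.repL i) : leechLattice) : GolayPt → ℤ) = dotL (D.repL i) (D.repL i) := by
    rw [sqNorm_toL, toL_vecL hok]
  constructor
  · intro hrel
    by_contra hi'
    rw [if_neg (by simpa using hi')] at hn
    simp only [Bool.or_eq_true, decide_eq_true_eq, beq_iff_eq, ← hs] at hn
    have hr : Rel (vecL (D.repL i)) (axisVec none) := (Rel.of_cg hcg).trans hrel
    rcases hn with hn | hn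
    · have := rel_short hr (by omega) (le_of_eq (sqNorm_axisVec none))
      rw [sqNorm_axisVec] at this
      omega
    · have := hr.sqNorm_iff.2 (by rw [sqNorm_axisVec]; norm_num)
      omega
  · intro hmem
    rw [if_pos (by simpa using hmem), beq_iff_eq, ← hs] at hn
    exact (Rel.of_cg hcg.symm).trans (rel_norm64 _ hn)

end Fix

end CfsgLib.MonsterCent
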