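import Cfsg.Agent.StdCo0.Mono
import Cfsg.Agent.Leech.Classes
import Cfsg.Agent.Leech.ModTwo
import Cfsg.Agent.Mathieu.Bounds

/-!
Kernel evaluation of words in the monomial elements and Conway's element on vectors given as
lists of 24 integers.
-/

set_option autoImplicit false
set_option maxRecDepth 20000

namespace CfsgLib.MonsterCent

open Cfsg CfsgLib.Leech CfsgLib.Mathieu CfsgLib.Golay CfsgLib.StdCo0

/-- Evaluate a number before use. -/
def forceN {β : Type} (n : ℕ) (k : ℕ → β) : β :=
  match n * 1 with
  | 0 => k 0
  | m + 1 => k (m + 1)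

theorem forceN_eq {β : Type} (n : ℕ) (k : ℕ → β) : forceN n k = k n := by
  rcases n with _ | n <;> simp [forceN]

/-- Evaluate an integer before use. -/
def forceI {β : Type} (z : ℤ) (k : ℤ → β) : β :=
  match z with
  | .ofNat n => forceN n fun n => k (.ofNat n)
  | .negSucc n => forceN n fun n => k (.negSucc n)

theorem forceI_eq {β : Type} (z : ℤ) (k : ℤ → β) : forceI z k = k z := by
  rcases z with n | n <;> simp [forceI, forceN_eq]

/-- Evaluate a list before use. -/
def forceL {β : Type} : List ℤ → (List ℤ → β) → β
  | [], k => k []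
  | a :: l, k => forceI a fun a => forceL l fun l => k (a :: l)

theorem forceL_eq {β : Type} : ∀ (x : List ℤ) (k : List ℤ → β), forceL x k = k x
  | [], k => rfl
  | a :: l, k => by rw [forceL, forceI_eq, forceL_eq l]

/-- Entry of a vector. -/
def nth (x : List ℤ) (i : ℕ) : ℤ := x.getD i 0

/-- The list of a vector. -/
def toL (v : GolayPt → ℤ) : List ℤ := (List.range 24).map fun j => v (i2p j)

/-- The vector of a list. -/
def ofL (x : List ℤ) : GolayPt → ℤ := fun p => nth x (p2i p)

theorem nth_range (f : ℕ → ℤ) {i : ℕ} (h : i < 24) : nth ((List.range 24).map f) i = f i := by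
  simp [nth, h]

theorem nth_toL (v : GolayPt → ℤ) (p : GolayPt) : nth (toL v) (p2i p) = v p := by
  rw [toL, nth_range _ (p2i_lt p), i2p_p2i]

theorem ofL_toL (v : GolayPt → ℤ) : ofL (toL v) = v := funext fun p => nth_toL v p

theorem toL_injective : Function.Injective toL := fun u v h => by
  rw [← ofL_toL u, ← ofL_toL v, h]

theorem sum_range24 (f : GolayPt → ℤ) : ∑ q : GolayPt, f q = ((List.range 24).map fun j => f (i2p j)).sum := by
  have hnd : ((List.range 24).map i2p).Nodup := by decide +kernel
  have hmem : ∀ q : GolayPt, q ∈ ((List.range 24).map i2p).toFinset := by decide +kernel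
  rw [← Finset.eq_univ_iff_forall.2 hmem, List.sum_toFinset f hnd, List.map_map]
  rfl

/-- The tetrad of a point number. -/
def tetN : List ℕ := [0, 0, 0, 1, 5, 1, 4, 4, 2, 3, 3, 2, 2, 5, 1, 3, 5, 1, 2, 4, 3, 4, 5, 0]

theorem tetN_eq : ∀ p : GolayPt, tetN.getD (p2i p) 0 = (tetrad p).val := by decide +kernel

/-- The coordinate sum over a tetrad. -/
def tetS (x : List ℤ) (k : ℕ) : ℤ :=
  ((List.range 24).map fun j => if tetN.getD j 0 = k then nth x j else 0).sum

/-- Conway's map on lists. -/
def xiL (x : List ℤ) : List ℤ :=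
  forceL ((List.range 6).map fun k => tetS x k / 2) fun S =>
  (List.range 24).map fun i =>
    let k := tetN.getD i 0
    if k = 0 then nth S k - nth x i else nth x i - nth S k

theorem toL_xiFun (v : GolayPt → ℤ) : toL (xiFun v) = xiL (toL v) := by
  show ((List.range 24).map fun j => xiFun v (i2p j)) = _
  rw [xiL, forceL_eq]
  refine List.map_congr_left fun i hi => ?_
  have hi' := List.mem_range.1 hi
  have hk : tetN.getD i 0 = (tetrad (i2p i)).val := by
    rw [← tetN_eq, p2i_i2p i hi']
  have hS : ∀ k : Fin 6, tetS (toL v) k.val = tetSum v k := by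
    intro k
    rw [tetSum, Finset.sum_filter, sum_range24, tetS]
    refine congrArg List.sum (List.map_congr_left fun j hj => ?_)
    have hj' := List.mem_range.1 hj
    rw [show tetN.getD j 0 = (tetrad (i2p j)).val by rw [← tetN_eq, p2i_i2p j hj'],
      show nth (toL v) j = v (i2p j) from nth_range _ hj']
    simp only [Fin.val_inj]
  have hn : nth ((List.range 6).map fun k => tetS (toL v) k / 2) (tetrad (i2p i)).val =
      tetSum v (tetrad (i2p i)) / 2 := by
    simp [nth, (tetrad (i2p i)).isLt, hS]
  simp only [hk, hn, xiFun, show nth (toL v) i = v (i2p i) from nth_range _ hi']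
  by_cases h : tetrad (i2p i) = 0
  · rw [if_pos h, if_pos (by rw [h]; rfl)]
  · have h' : (tetrad (i2p i)).val ≠ 0 := fun e => h (Fin.ext e)
    rw [if_neg h, if_neg h']

/-- A signed permutation on lists; `u` is the inverse table. -/
def monL (C : ℕ) (u : List ℕ) (x : List ℤ) : List ℤ :=
  (List.range 24).map fun i => if C.testBit i then -nth x (app u i) else nth x (app u i)

theorem toL_mrep {g : Co0} {C : ℕ} {t u : List ℕ} (h : MRep g C t) (hu : compTab t u = idTab)
    (hr : u.length = 24 ∧ ∀ a ∈ u, a < 24) (v : leechLattice) :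
    toL ((g • v : leechLattice) : GolayPt → ℤ) = monL C u (toL (v : GolayPt → ℤ)) := by
  obtain ⟨⟨c, σ⟩, rfl, rfl, rfl⟩ := h
  refine List.map_congr_left fun i hi => ?_
  have hi' := List.mem_range.1 hi
  have hlt : app u i < 24 := by
    have hil : i < u.length := hr.1 ▸ hi'
    have : app u i = u[i] := by simp [app, List.getD_eq_getElem?_getD, hil]
    rw [this]; exact hr.2 _ (List.getElem_mem hil)
  have hs : σ.1 (i2p (app u i)) = i2p i := by
    apply p2i_injective
    rw [← app_toTab σ.1 _ hlt, p2i_i2p i hi']
    have := congrArg (fun l => app l i) hu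
    simp only [compTab, idTab] at this
    have hil : i < u.length := hr.1 ▸ hi'
    simpa [app, List.getD_eq_getElem?_getD, hil, hi'] using this
  have hinv : σ.1.symm (i2p i) = i2p (app u i) := (Equiv.symm_apply_eq _).2 hs.symm
  have hb : (toMask (support₂ c.1)).testBit i = decide (c.1 (i2p i) ≠ 0) := by
    have key : ∀ p, (idx p : ℕ) = p2i p := by decide
    conv_lhs => rw [← p2i_i2p i hi', ← key, testBit_toMask, pt_idx]
    simp [support₂]
  rw [monomial_apply, hb, hinv, show nth (toL (v : GolayPt → ℤ)) (app u i) = _ from nth_range _ hlt]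
  by_cases hc : c.1 (i2p i) = 0 <;> simp [hc]

/-- One letter: `none` is Conway's element, otherwise mask, table and inverse table. -/
abbrev Step := Option (ℕ × List ℕ × List ℕ)

/-- A letter may be used. -/
def stepValid : Step → Bool
  | none => true
  | some (C, t, u) => inCode C && tabInM24 t && (compTab t u == idTab) && (u.length == 24) &&
      u.all (fun a => decide (a < 24))

/-- A letter on lists. -/
def stepL : Step → List ℤ → List ℤ
  | none, x => xiL x
  | some (C, _, u), x => monL C u x

/-- A word on lists; the last letter acts first. -/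
def runL : List Step → List ℤ → List ℤ
  | [], x => x
  | s :: w, x => forceL (runL w x) (stepL s)

/-- A letter as an automorphism. -/
noncomputable def stepEl : Step → Co0
  | none => xi
  | some (C, t, _) => mon (C, t)

/-- A word as an automorphism. -/
noncomputable def wordEl (w : List Step) : Co0 := (w.map stepEl).prod

theorem toL_word {w : List Step} (h : w.all stepValid = true) (v : leechLattice) :
    toL ((wordEl w • v : leechLattice) : GolayPt → ℤ) = runL w (toL (v : GolayPt → ℤ)) := by
  induction w with
  | nil => simp [wordEl, runL]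
  | cons s w ih =>
    rw [List.all_cons, Bool.and_eq_true] at h
    rw [show wordEl (s :: w) = stepEl s * wordEl w from rfl, mul_smul,
      show runL (s :: w) (toL (v : GolayPt → ℤ)) = stepL s (runL w (toL (v : GolayPt → ℤ))) from
        forceL_eq _ _,
      ← ih h.2]
    match s, h.1 with
    | none, _ => exact toL_xiFun _
    | some (C, t, u), hv =>
      simp only [stepValid, Bool.and_eq_true, beq_iff_eq, List.all_eq_true,
        decide_eq_true_eq] at hv
      exact toL_mrep (mrep_mon (x := (C, t)) hv.1.1.1.1 hv.1.1.1.2) hv.1.1.2 ⟨hv.1.2, hv.2⟩ _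

/-- A permutation on lists. -/
def permL (u : List ℕ) (x : List ℤ) : List ℤ := (List.range 24).map fun i => nth x (app u i)

/-- A fast membership test for the lattice. -/
def memL (x : List ℤ) : Bool :=
  forceL x fun x =>
  forceI (nth x 23) fun c =>
  (List.range 24).all (fun i => (nth x i - c) % 2 == 0) &&
    inCode ((List.range 24).foldr
      (fun i m => (if ((nth x i - c) / 2) % 2 == 0 then 0 else 2 ^ i) ||| m) 0) &&
    ((((List.range 24).map (nth x)).sum - 4 * c) % 8 == 0)

theorem testBit_foldr (P : ℕ → Bool) (L : List ℕ) (k : ℕ) :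
    (L.foldr (fun i m => (if P i then 0 else 2 ^ i) ||| m) 0).testBit k =
      (decide (k ∈ L) && !P k) := by
  induction L with
  | nil => simp
  | cons a L ih =>
    rw [List.foldr_cons, Nat.testBit_or, ih]
    by_cases hak : a = k
    · subst hak
      cases P a <;> simp
    · have : ¬ k = a := fun h => hak h.symm
      cases P a <;> simp [hak, this]

theorem ofL_mem {x : List ℤ} (h : memL x = true) : ofL x ∈ leechLattice := by
  simp only [memL, forceL_eq, forceI_eq, Bool.and_eq_true, List.all_eq_true, List.mem_range] at h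
  obtain ⟨⟨h1, h2⟩, h3⟩ := h
  simp only [beq_iff_eq] at h1 h3
  refine mem_leech_iff.2 ⟨nth x 23, fun p => (ofL x p - nth x 23) / 2, fun p => ?_, ?_, ?_⟩
  · have := h1 _ (p2i_lt p)
    show nth x (p2i p) = nth x 23 + 2 * ((nth x (p2i p) - nth x 23) / 2)
    omega
  · set m := (List.range 24).foldr
      (fun i m => (if ((nth x i - nth x 23) / 2) % 2 == 0 then 0 else 2 ^ i) ||| m) 0 with hm
    have hw : red (fun p => (ofL x p - nth x 23) / 2) = wordOf (ofMask m) := by
      funext p
      rw [red_apply, wordOf]
      have hb : p ∈ ofMask m ↔ ¬ ((nth x (p2i p) - nth x 23) / 2) % 2 = 0 := by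
        rw [mem_ofMask_iff, hm, testBit_foldr]
        simp [p2i_lt p]
      by_cases he : p ∈ ofMask m
      · rw [if_pos he]
        have h0 := hb.1 he
        have : ((((ofL x p - nth x 23) / 2 : ℤ)) : ZMod 2) ≠ 0 := fun e => by
          rw [intCast_two_eq_zero] at e
          exact h0 (Int.emod_eq_zero_of_dvd e)
        exact (show ∀ a : ZMod 2, a ≠ 0 → a = 1 by decide) _ this
      · rw [if_neg he, intCast_two_eq_zero]
        exact Int.dvd_of_emod_eq_zero (not_not.1 fun e => he (hb.2 e))
    rw [hw]
    exact mem_supports_iff_wordOf.1 (mem_supports_iff.2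
      (by rwa [toMask_ofMask (inCode_lt h2)]))
  · have hs : ∑ p, (ofL x p - nth x 23) = ((List.range 24).map (nth x)).sum - 24 * nth x 23 := by
      rw [Finset.sum_sub_distrib, sum_range24 (ofL x)]
      congr 1
      rw [Finset.sum_const, Finset.card_univ, show Fintype.card GolayPt = 24 from rfl]; simp
    have hd : ∑ p, ((ofL x p - nth x 23) / 2) * 2 = ∑ p, (ofL x p - nth x 23) :=
      Finset.sum_congr rfl fun p _ => Int.ediv_mul_cancel (Int.dvd_of_emod_eq_zero (h1 _ (p2i_lt p)))
    rw [← Finset.sum_mul, hs] at hd
    have hq : ∑ p, ofL x p = ((List.range 24).map (nth x)).sum := by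
      rw [sum_range24 (ofL x)]
      exact congrArg List.sum (List.map_congr_left fun j hj => by
        show nth x (p2i (i2p j)) = nth x j
        rw [p2i_i2p j (List.mem_range.1 hj)])
    omega

/-- The lattice vector of a list, and zero if it is none. -/
def vecL (x : List ℤ) : leechLattice :=
  if h : memL x = true then ⟨ofL x, ofL_mem h⟩ else 0

theorem coe_vecL {x : List ℤ} (h : memL x = true) : ((vecL x : leechLattice) : GolayPt → ℤ) = ofL x := by
  rw [vecL, dif_pos h]

/-- The lists agree modulo twice the lattice. -/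
def cgL (x y : List ℤ) : Bool :=
  forceL x fun x => forceL y fun y =>
  (List.range 24).all (fun i => (nth x i - nth y i) % 2 == 0) &&
    memL ((List.range 24).map fun i => (nth x i - nth y i) / 2)

theorem cg_of_cgL {u v : leechLattice} (h : cgL (toL (u : GolayPt → ℤ)) (toL (v : GolayPt → ℤ)) = true) :
    Cg u v := by
  simp only [cgL, forceL_eq, Bool.and_eq_true, List.all_eq_true, List.mem_range, beq_iff_eq] at h
  refine cg_of_eq (w := ⟨_, ofL_mem h.2⟩) fun p => ?_
  have h1 := h.1 _ (p2i_lt p)
  show (u : GolayPt → ℤ) p = (v : GolayPt → ℤ) p + 2 * nth _ (p2i p)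
  rw [nth_range _ (p2i_lt p)]
  rw [nth_toL, nth_toL] at h1 ⊢
  omega

/-- The inner product of two lists. -/
def dotL (x y : List ℤ) : ℤ := ((List.range 24).map fun i => nth x i * nth y i).sum

theorem dotL_toL (u v : GolayPt → ℤ) : dotL (toL u) (toL v) = dotInt u v := by
  rw [dotInt, sum_range24, dotL]
  exact congrArg List.sum (List.map_congr_left fun j hj => by
    rw [show nth (toL u) j = _ from nth_range _ (List.mem_range.1 hj),
      show nth (toL v) j = _ from nth_range _ (List.mem_range.1 hj)])

theorem sqNorm_toL (u : GolayPt → ℤ) : sqNorm u = dotL (toL u) (toL u) := by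
  rw [dotL_toL]
  simp [sqNorm, dotInt, sq]

/-- The parities against a list of vectors, as bits. -/
def keyL (bs : List (List ℤ)) (x : List ℤ) : ℕ :=
  forceL x fun x =>
  bs.foldr (fun b n => (if (dotL x b / 8) % 2 == 0 then 0 else 1) + 2 * n) 0

/-- The parities of a class against fixed vectors. -/
def keyOf (bs : List (List ℤ)) (v : leechLattice) : ℕ := keyL bs (toL (v : GolayPt → ℤ))

theorem keyOf_cg {bs : List (List ℤ)} (hb : bs.all memL = true) {u v : leechLattice}
    (h : Cg u v) : keyOf bs u = keyOf bs v := by
  induction bs with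
  | nil => simp [keyOf, keyL, forceL_eq]
  | cons b bs ih =>
    rw [List.all_cons, Bool.and_eq_true] at hb
    have h1 := ih hb.2
    simp only [keyOf, keyL, forceL_eq, List.foldr_cons] at h1 ⊢
    rw [h1]
    congr 1
    have e : ∀ w : leechLattice, dotL (toL (w : GolayPt → ℤ)) b = dotInt (w : GolayPt → ℤ) (ofL b) := by
      intro w
      rw [dotInt, sum_range24, dotL]
      exact congrArg List.sum (List.map_congr_left fun j hj => by
        rw [show nth (toL (w : GolayPt → ℤ)) j = _ from nth_range _ (List.mem_range.1 hj), ofL,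
          p2i_i2p j (List.mem_range.1 hj)])
    have h2 : dotPar u ⟨_, ofL_mem hb.1⟩ = dotPar v ⟨_, ofL_mem hb.1⟩ := dotPar_cg h _
    simp only [dotPar] at h2
    rw [e, e]
    have h3 := (ZMod.intCast_eq_intCast_iff' _ _ 2).1 h2
    norm_num at h3
    rw [h3]

/-- A vector packed in bytes, with offset 128. -/
def unVec (n : ℕ) : List ℤ :=
  (List.range 24).map fun i => ((n / 2 ^ (8 * i) % 256 : ℕ) : ℤ) - 128

/-- A list of numbers packed in nine bits each. -/
def unNats (len n : ℕ) : List ℕ := (List.range len).map fun i => n / 2 ^ (9 * i) % 512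

end CfsgLib.MonsterCent
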