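import Mathlib

/-!
Coprime conjugacy over a normal 2-subgroup and 2-groups acting on a small set.
-/

set_option autoImplicit false

namespace CfsgLib.MonsterCent

/-- Two elements of odd prime order lying in one coset of a normal 2-subgroup are conjugate by it,
inside any subgroup containing both. -/
theorem exists_conj_of_coset {H : Type*} [Group H] [Finite H] (N : Subgroup H) [N.Normal]
    (hN : IsPGroup 2 N) {p : ℕ} (hp : p.Prime) (hp2 : p ≠ 2) {x y : H} (hx : x ^ p = 1)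
    (hy : y ^ p = 1) (S : Subgroup H) (hxS : x ∈ S) (hyS : y ∈ S) (hxy : x⁻¹ * y ∈ N) :
    ∃ n ∈ N, n ∈ S ∧ n * x * n⁻¹ = y := by
  haveI : Fact p.Prime := ⟨hp⟩
  haveI : Fact (Nat.Prime 2) := ⟨Nat.prime_two⟩
  have hnN : ∀ m : H, m ∈ N → m ^ p = 1 → m = 1 := by
    intro m hm hmp
    obtain ⟨k, hk⟩ := hN ⟨m, hm⟩
    have hk' : m ^ 2 ^ k = 1 := congrArg Subtype.val hk
    have hcop : Nat.Coprime (2 ^ k) p :=
      Nat.Coprime.pow_left _ ((Nat.coprime_primes Nat.prime_two hp).2 (Ne.symm hp2))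
    have := pow_gcd_eq_one.2 ⟨hk', hmp⟩
    rwa [hcop, pow_one] at this
  by_cases hx1 : x = 1
  · subst hx1
    rw [inv_one, one_mul] at hxy
    exact ⟨1, one_mem _, one_mem _, by rw [hnN y hxy hy]; group⟩
  have hy1 : y ≠ 1 := fun h => hx1 (hnN x (by simpa [h] using hxy) hx)
  set q : H →* H ⧸ N := QuotientGroup.mk' N with hq
  set U : Subgroup H := (Subgroup.zpowers (q x)).comap q ⊓ S with hU
  have hqxy : q y = q x := (QuotientGroup.eq.2 hxy).symm
  have hxU : x ∈ U := ⟨Subgroup.mem_zpowers (q x), hxS⟩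
  have hyU : y ∈ U := ⟨Subgroup.mem_comap.2 (hqxy ▸ Subgroup.mem_zpowers (q x)), hyS⟩
  have hqx : orderOf (q x) = p := orderOf_eq_prime (by rw [← map_pow, hx, map_one]) fun h =>
    hx1 (hnN x ((QuotientGroup.eq_one_iff x).1 h) hx)
  let f : U →* H ⧸ N := q.comp U.subtype
  have hfr : f.range = Subgroup.zpowers (q x) :=
    le_antisymm (by rintro _ ⟨⟨u, hu, -⟩, rfl⟩; exact hu)
      (Subgroup.zpowers_le.2 ⟨⟨x, hxU⟩, rfl⟩)
  have hk2 : IsPGroup 2 f.ker := fun k => by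
    obtain ⟨j, hj⟩ := hN ⟨_, (QuotientGroup.eq_one_iff _).1 k.2⟩
    exact ⟨j, Subtype.ext (Subtype.ext (congrArg Subtype.val hj :))⟩
  obtain ⟨a, ha⟩ := hk2.exists_card_eq
  have hcard := Subgroup.card_mul_index f.ker
  rw [Subgroup.index_ker, hfr, Nat.card_zpowers, hqx, ha] at hcard
  have hfac : (Nat.card U).factorization p = 1 := by
    rw [← hcard, Nat.factorization_mul (by positivity) hp.ne_zero]
    simp [Nat.prime_two.factorization_pow, hp.factorization, Ne.symm hp2, hp2]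
  have hsyl : ∀ (u : U), (u : H) ^ p = 1 → (u : H) ≠ 1 →
      Nat.card (Subgroup.zpowers u) = p ^ (Nat.card U).factorization p := by
    intro u h1 h2
    rw [hfac, pow_one, Nat.card_zpowers]
    exact orderOf_eq_prime (Subtype.ext h1) fun h => h2 (congrArg Subtype.val h)
  obtain ⟨u, hu⟩ := MulAction.exists_smul_eq U
    (Sylow.ofCard _ (hsyl ⟨x, hxU⟩ hx hx1)) (Sylow.ofCard _ (hsyl ⟨y, hyU⟩ hy hy1))
  have hmem : u * ⟨x, hxU⟩ * u⁻¹ ∈ Subgroup.zpowers (⟨y, hyU⟩ : U) := by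
    have h1 := congrArg Sylow.toSubgroup hu
    rw [Sylow.coe_ofCard] at h1
    rw [← h1]
    exact Subgroup.mem_map_of_mem _ (Subgroup.mem_zpowers (⟨x, hxU⟩ : U))
  obtain ⟨j, hj⟩ := Subgroup.mem_zpowers_iff.1 hmem
  have hj' : y ^ j = (u : H) * x * (u : H)⁻¹ := congrArg Subtype.val hj
  obtain ⟨i, hi⟩ := Subgroup.mem_zpowers_iff.1 (u.2.1 : q (u : H) ∈ _)
  have hqu : q x = q x ^ j := by
    have h1 := congrArg q hj'
    rw [map_zpow, map_mul, map_mul, map_inv, hqxy, ← hi] at h1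
    rw [h1]; group
  have hjy : y ^ j = y := by
    have h1 : q x ^ (j - 1) = 1 := by rw [zpow_sub_one, ← hqu, mul_inv_cancel]
    rw [← orderOf_dvd_iff_zpow_eq_one, hqx] at h1
    have hoy : orderOf y = p := orderOf_eq_prime hy hy1
    rw [show j = 1 + (j - 1) by ring, zpow_add, zpow_one,
      orderOf_dvd_iff_zpow_eq_one.1 (by rw [hoy]; exact h1), mul_one]
  refine ⟨(u : H) * (x ^ i)⁻¹, ?_, mul_mem u.2.2 (inv_mem (zpow_mem hxS i)), ?_⟩
  · refine (QuotientGroup.eq_one_iff _).1 ?_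
    show q ((u : H) * (x ^ i)⁻¹) = 1
    rw [map_mul, map_inv, map_zpow, hi, mul_inv_cancel]
  · rw [← hjy, hj']; group

/-- A 2-group permuting an odd number of points fixes one. -/
theorem exists_fixed_of_odd {α : Type*} [Fintype α] (P : Subgroup (Equiv.Perm α))
    (hP : IsPGroup 2 P) (h : Odd (Fintype.card α)) : ∃ a, ∀ g ∈ P, g a = a := by
  haveI : Fact (Nat.Prime 2) := ⟨Nat.prime_two⟩
  obtain ⟨a, ha⟩ := hP.nonempty_fixed_point_of_prime_not_dvd_card α (by
    rw [Nat.card_eq_fintype_card]; exact h.not_two_dvd_nat)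
  exact ⟨a, fun g hg => ha ⟨g, hg⟩⟩

/-- A transitive group on an odd number of points has no nontrivial normal 2-subgroup. -/
theorem no_normal_two_of_odd {α : Type*} [Fintype α] (T : Subgroup (Equiv.Perm α))
    (h : Odd (Fintype.card α)) (ht : ∀ a b : α, ∃ g ∈ T, g a = b) (P : Subgroup T) [P.Normal]
    (hP : IsPGroup 2 P) : P = ⊥ := by
  obtain ⟨a, ha⟩ := exists_fixed_of_odd (P.map T.subtype) (hP.map _) h
  refine (Subgroup.eq_bot_iff_forall _).2 fun g hg => Subtype.ext (Equiv.ext fun b => ?_)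
  obtain ⟨t, htT, rfl⟩ := ht a b
  have hc := (inferInstance : P.Normal).conj_mem _ hg (⟨t, htT⟩⁻¹ : T)
  have := ha _ ⟨_, hc, rfl⟩
  simp only [Subgroup.coe_subtype, Subgroup.coe_mul, InvMemClass.coe_inv, inv_inv,
    Equiv.Perm.mul_apply, Equiv.Perm.inv_eq_iff_eq] at this
  simpa using this

end CfsgLib.MonsterCent
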