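import Cfsg.Agent.MonsterCent.Blocks
import Cfsg.Agent.Leech.Order
import Cfsg.Agent.MonsterCent13.Generic

/-!
The centraliser of the permutation modulo its centre and the permutation is the group induced on
the blocks.
-/

set_option autoImplicit false

namespace CfsgLib.MonsterCent

open Cfsg CfsgLib.Leech CfsgLib.Mathieu CfsgLib.Golay CfsgLib.MonsterCent13

namespace Blk

variable {D : Blk} (hD : D.OK)
include hD

theorem OK.el_pow : D.toFix.el ^ D.p = 1 := by
  rw [Fix.el, ← map_pow, hD.base.toOK.sig_pow, map_one]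

theorem OK.el_ne_one : D.toFix.el ≠ 1 := fun h => by
  refine hD.base.toOK.sig_ne_one ?_
  have e : monomial (0, D.sig) = monomial (0, 1) := by
    simp only [monomial, map_one, mul_one, signs_zero, one_mul]
    exact h
  exact congrArg Prod.snd (monomial_injective e)

theorem OK.base_le_ker : MonsterCent13.base D.toFix.el ≤ (rho hD).ker := by
  intro k hk
  have hk' : (k : Co0) ∈ Subgroup.center Co0 ⊔ Subgroup.zpowers D.toFix.el := hk
  rw [MonoidHom.mem_ker]
  refine rho_eq_one hD fun i _ => ?_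
  obtain ⟨c, hc, d, hd, hcd⟩ := Subgroup.mem_sup_of_normal_left.1 hk'
  obtain ⟨n, rfl⟩ : ∃ n : ℕ, D.toFix.el ^ n = d := mem_powers_iff_mem_zpowers.2 hd
  rw [← hcd, mul_smul]
  have h1 : Cg (D.toFix.el ^ n • D.toFix.comb i) (D.toFix.comb i) := by
    induction n with
    | zero => rw [pow_zero, one_smul]; exact Cg.refl _
    | succ n _ =>
      have h2 : ∀ m : ℕ, Cg (D.toFix.el ^ m • D.toFix.comb i) (D.toFix.comb i) := by
        intro m
        induction m with
        | zero => rw [pow_zero, one_smul]; exact Cg.refl _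
        | succ m ih => rw [pow_succ', mul_smul]; exact (ih.smul _).trans (hD.base.toOK.fixed_comb i)
      exact h2 _
  refine Cg.trans (h1.smul c) ?_
  rcases center_co0_cases hc with rfl | rfl
  · rw [one_smul]; exact Cg.refl _
  · rw [negOne_smul]; exact cg_neg _

theorem OK.card_base_ge (hp : D.p.Prime) : 2 * D.p ≤ Nat.card (MonsterCent13.base D.toFix.el) := by
  have hle : Subgroup.center Co0 ⊔ Subgroup.zpowers D.toFix.el ≤ D.toFix.cen := by
    refine sup_le (fun c hc => ?_) (Subgroup.zpowers_le.2 ?_)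
    · exact (D.toFix.mem_cen).2 (Subgroup.mem_center_iff.1 hc _).symm
    · exact (D.toFix.mem_cen).2 rfl
  rw [show Nat.card (MonsterCent13.base D.toFix.el) =
      Nat.card ↥(Subgroup.center Co0 ⊔ Subgroup.zpowers D.toFix.el) from
    Nat.card_congr (Subgroup.subgroupOfEquivOfLe hle).toEquiv]
  refine Nat.le_of_dvd Nat.card_pos ?_
  have h2 : Nat.Coprime 2 D.p := by
    rcases Nat.coprime_or_dvd_of_prime Nat.prime_two D.p with h | h
    · exact h
    · exfalso
      have := hD.base.toOK.facts.2.1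
      omega
  refine h2.mul_dvd_of_dvd_of_dvd ?_ ?_
  · rw [← center_co0_card]; exact Subgroup.card_dvd_of_le le_sup_left
  · haveI : Fact D.p.Prime := ⟨hp⟩
    rw [← orderOf_eq_prime hD.el_pow hD.el_ne_one, ← Nat.card_zpowers]
    exact Subgroup.card_dvd_of_le le_sup_right

/-- The image on the blocks is the target and the kernel is the base. -/
theorem OK.range_ker (hp : D.p.Prime) (T : Subgroup (Equiv.Perm (Fin D.m)))
    (hT : T ≤ (rho hD).range)
    (hn : D.orb.length * (D.fixC.length * D.cent.length) ≤ 2 * D.p * Nat.card T) :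
    (rho hD).range = T ∧ (rho hD).ker = MonsterCent13.base D.toFix.el := by
  have h1 := Subgroup.card_mul_index (rho hD).ker
  rw [Subgroup.index_ker] at h1
  have h2 := hD.base.card_cen_le
  have h3 := hD.card_base_ge hp
  have h4 := Nat.le_of_dvd Nat.card_pos (Subgroup.card_dvd_of_le hD.base_le_ker)
  have h5 := Nat.le_of_dvd Nat.card_pos (Subgroup.card_dvd_of_le hT)
  have h6 : 0 < Nat.card T := Nat.card_pos
  have hle : Nat.card (rho hD).ker * Nat.card (rho hD).range ≤ 2 * D.p * Nat.card T :=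
    h1.trans_le (h2.trans hn)
  have hmul1 := Nat.mul_le_mul_right (Nat.card (rho hD).range) (h3.trans h4)
  have hmul2 := Nat.mul_le_mul_left (Nat.card (rho hD).ker) h5
  refine ⟨(Subgroup.eq_of_le_of_card_ge hT ?_).symm,
    (Subgroup.eq_of_le_of_card_ge hD.base_le_ker ?_).symm⟩
  · exact Nat.le_of_mul_le_mul_left (hmul1.trans hle) (by have := hp.pos; omega)
  · exact (Nat.le_of_mul_le_mul_right (hmul2.trans hle) h6).trans h3

/-- An element fixing all fixed classes lies in the base. -/
theorem OK.faithful (hker : (rho hD).ker = MonsterCent13.base D.toFix.el) :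
    ∀ k ∈ Subgroup.centralizer ({D.toFix.el} : Set Co0),
      (∀ v : leechLattice, Cg (D.toFix.el • v) v → Cg (k • v) v) →
        k ∈ Subgroup.center Co0 ⊔ Subgroup.zpowers D.toFix.el := by
  intro k hk h
  have h1 : (⟨k, hk⟩ : D.toFix.cen) ∈ (rho hD).ker :=
    rho_eq_one hD fun i _ => h _ (hD.base.toOK.fixed_comb i)
  rw [hker] at h1
  exact h1

/-- The centraliser modulo the base is the target. -/
theorem OK.exists_quot_equiv {T : Subgroup (Equiv.Perm (Fin D.m))} (hT : (rho hD).range = T)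
    (hker : (rho hD).ker = MonsterCent13.base D.toFix.el) :
    Nonempty (Subgroup.centralizer ({D.toFix.el} : Set Co0) ⧸ MonsterCent13.base D.toFix.el ≃* T) :=
  ⟨(QuotientGroup.quotientMulEquivOfEq hker.symm).trans
    ((QuotientGroup.quotientKerEquivRange (rho hD)).trans (MulEquiv.subgroupCongr hT))⟩

theorem OK.target_mem {ts : List (List ℕ × List ℕ)}
    (h : ts.all (fun x => Blk.targetOK D x.1 x.2) = true) {g : Equiv.Perm (Fin D.m)}
    (hg : ((List.finRange D.m).map fun k => (g k).val) ∈ ts.map Prod.fst) :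
    g ∈ (rho hD).range := by
  obtain ⟨x, hx, e⟩ := List.mem_map.1 hg
  obtain ⟨δ, hδ⟩ := hD.exists_of_target (List.all_eq_true.1 h x hx)
  refine ⟨δ, Equiv.ext fun k => Fin.ext ?_⟩
  rw [hδ k, e]
  simp [List.getD_eq_getElem?_getD]

/-- The classes of the fixed vectors. -/
theorem OK.card_fixed_classes {G : Type*} [Group G] {z : G}
    {Q : Subgroup (Subgroup.centralizer ({z} : Set G))} [Q.Normal]
    {e : (Subgroup.centralizer ({z} : Set G)) ⧸ Q ≃* Spor.Co1}
    {ψ : leechLattice → Q ⧸ Subgroup.center Q} (hψ : IsLeechModTwoIso Q e ψ) :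
    Nat.card {c : Q ⧸ Subgroup.center Q // ∃ v, ψ v = c ∧ Cg (D.toFix.el • v) v} = 2 ^ D.r := by
  let f : Fin (2 ^ D.r) → {c : Q ⧸ Subgroup.center Q // ∃ v, ψ v = c ∧ Cg (D.toFix.el • v) v} :=
    fun i => ⟨ψ (D.toFix.comb i.1), _, rfl, hD.base.toOK.fixed_comb i.1⟩
  have hf : Function.Bijective f := by
    refine ⟨fun i j h => Fin.ext ?_, ?_⟩
    · exact hD.base.toOK.comb_inj i.2 j.2 ((psi_eq_iff hψ _ _).1 (congrArg Subtype.val h))
    · rintro ⟨c, v, rfl, hv⟩
      obtain ⟨h1, h2⟩ := hD.base.toOK.cg_comb_idx hv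
      exact ⟨⟨_, h2⟩, Subtype.ext ((psi_eq_iff hψ _ _).2 h1.symm)⟩
  rw [← Nat.card_congr (Equiv.ofBijective f hf), Nat.card_eq_fintype_card, Fintype.card_fin]

end Blk

end CfsgLib.MonsterCent
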