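import Mathlib
import Cfsg.Prelude.Def_MonsterType
import Cfsg.Agent.SmallIso.PSLThreeTwo
import Cfsg.Agent.MonsterCent.Generic

/-!
The three groups induced on the blocks: the wreath product of degree ten, the alternating group of
degree nine, and `SL(3, 2)` on the seven nonzero vectors.
-/

set_option autoImplicit false
set_option maxRecDepth 20000

namespace CfsgLib.MonsterCent

open Cfsg Equiv Equiv.Perm

/-- A subgroup containing all products `(a b)(b c)` contains the alternating group. -/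
theorem alternating_le_of_triples {α : Type*} [Fintype α] [DecidableEq α] {H : Subgroup (Perm α)}
    (h : ∀ a b c : α, a ≠ b → b ≠ c → a ≠ c → swap a b * swap b c ∈ H) :
    alternatingGroup α ≤ H := by
  rw [← closure_three_cycles_eq_alternating, Subgroup.closure_le]
  intro g hg
  obtain ⟨a, ha⟩ := (IsThreeCycle.isCycle hg).nonempty_support
  have hnd := (IsThreeCycle.nodup_iff_mem_support hg).2 ha
  simp only [List.nodup_cons, List.mem_cons, List.not_mem_nil, or_false, not_or] at hnd
  rw [SetLike.mem_coe, (IsThreeCycle.eq_swap_mul_swap_iff_mem_support hg).2 ha]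
  exact h _ _ _ hnd.1.1 hnd.2.1 hnd.1.2

theorem alternating_transitive {n : ℕ} (hn : 3 ≤ n) (a b : Fin n) :
    ∃ g ∈ alternatingGroup (Fin n), g a = b := by
  by_cases hab : a = b
  · exact ⟨1, one_mem _, hab⟩
  obtain ⟨c, -, hc⟩ := Finset.exists_mem_notMem_of_card_lt_card
    (s := ({a, b} : Finset (Fin n))) (t := Finset.univ) (by
      rw [Finset.card_univ, Fintype.card_fin]
      have := Finset.card_le_two (a := a) (b := b)
      omega)
  simp only [Finset.mem_insert, Finset.mem_singleton, not_or] at hc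
  refine ⟨swap c b * swap a c, ?_, ?_⟩
  · rw [Equiv.Perm.mem_alternatingGroup, map_mul, sign_swap hc.2, sign_swap (Ne.symm hc.1)]
    decide
  · rw [Perm.mul_apply, swap_apply_left, swap_apply_left]

/-- Permutations of the ten blocks from permutations of two fives. -/
def tenHom : Perm (Fin 5 ⊕ Fin 5) →* Perm (Fin 10) where
  toFun g := finSumFinEquiv.permCongr g
  map_one' := Equiv.ext fun x => by simp [Equiv.permCongr_apply]
  map_mul' g h := Equiv.ext fun x => by simp [Equiv.permCongr_apply]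

theorem tenHom_injective : Function.Injective tenHom := fun g h e =>
  finSumFinEquiv.permCongr.injective e

/-- The wreath product on ten points. -/
def tenGroup : Subgroup (Perm (Fin 10)) := alternatingFiveWreathTwo.map tenHom

theorem card_a5 : Nat.card (alternatingGroup (Fin 5)) = 60 := by
  rw [nat_card_alternatingGroup, Nat.card_eq_fintype_card, Fintype.card_fin]
  rfl

theorem card_wreath : 7200 ≤ Nat.card alternatingFiveWreathTwo := by
  let f : alternatingGroup (Fin 5) × alternatingGroup (Fin 5) × Bool →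
      alternatingFiveWreathTwo := fun x =>
    ⟨Perm.sumCongr x.1.1 x.2.1.1 * (if x.2.2 then (sumComm (Fin 5) (Fin 5) : Perm _) else 1), by
      refine mul_mem (Subgroup.subset_closure (Or.inl ⟨x.1, x.2.1, rfl⟩)) ?_
      split_ifs
      · exact Subgroup.subset_closure (Or.inr rfl)
      · exact one_mem _⟩
  have hf : Function.Injective f := by
    rintro ⟨s, t, u⟩ ⟨s', t', u'⟩ e
    have he : ∀ y, (Perm.sumCongr s.1 t.1 * (if u then (sumComm (Fin 5) (Fin 5) : Perm _) else 1)) y =
        (Perm.sumCongr s'.1 t'.1 * (if u' then (sumComm (Fin 5) (Fin 5) : Perm _) else 1)) y :=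
      fun y => Equiv.Perm.congr_fun (congrArg Subtype.val e) y
    have hu : u = u' := by
      have h1 := congrArg Sum.isLeft (he (Sum.inl 0))
      cases u <;> cases u' <;> simp [Perm.sumCongr_apply] at h1 ⊢
    subst hu
    have hs : s = s' := Subtype.ext (Equiv.ext fun i => by
      cases u
      · simpa [Perm.sumCongr_apply] using he (Sum.inl i)
      · simpa [Perm.sumCongr_apply] using he (Sum.inr i))
    have ht : t = t' := Subtype.ext (Equiv.ext fun i => by
      cases u
      · simpa [Perm.sumCongr_apply] using he (Sum.inr i)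
      · simpa [Perm.sumCongr_apply] using he (Sum.inl i))
    rw [hs, ht]
  have h5 := card_a5
  have := Nat.card_le_card_of_injective f hf
  rw [Nat.card_prod, Nat.card_prod, h5, Nat.card_eq_fintype_card (α := Bool),
    Fintype.card_bool] at this
  exact this

theorem card_tenGroup : 7200 ≤ Nat.card tenGroup := by
  rw [tenGroup, Subgroup.card_map_of_injective tenHom_injective]
  exact card_wreath

/-- The images of the generators suffice. -/
theorem tenGroup_le {H : Subgroup (Perm (Fin 10))}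
    (h3 : ∀ a b c : Fin 5, a ≠ b → b ≠ c → a ≠ c →
      tenHom (Perm.sumCongr (swap a b * swap b c) 1) ∈ H)
    (hs : tenHom (sumComm (Fin 5) (Fin 5)) ∈ H) : tenGroup ≤ H := by
  rw [tenGroup, Subgroup.map_le_iff_le_comap, alternatingFiveWreathTwo, Subgroup.closure_le]
  let j : Perm (Fin 5) →* Perm (Fin 5 ⊕ Fin 5) :=
    (Perm.sumCongrHom (Fin 5) (Fin 5)).comp (MonoidHom.inl _ _)
  have hA : alternatingGroup (Fin 5) ≤ H.comap (tenHom.comp j) :=
    alternating_le_of_triples fun a b c h1 h2 h4 => h3 a b c h1 h2 h4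
  rintro g (⟨s, t, rfl⟩ | rfl)
  · have hs' : tenHom (j s.1) ∈ H := hA s.2
    have ht' : tenHom (j t.1) ∈ H := hA t.2
    have e : Perm.sumCongr s.1 t.1 = j s.1 *
        ((sumComm (Fin 5) (Fin 5) : Perm _) * j t.1 * (sumComm (Fin 5) (Fin 5) : Perm _)) :=
      Equiv.ext fun x => by rcases x with x | x <;> simp [j, Perm.sumCongr_apply]
    show tenHom _ ∈ H
    rw [e, map_mul, map_mul, map_mul]
    exact mul_mem hs' (mul_mem (mul_mem hs ht') hs)
  · exact hs

theorem wreath_cases {x : Perm (Fin 5 ⊕ Fin 5)} (hx : x ∈ alternatingFiveWreathTwo) :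
    ∃ s t : alternatingGroup (Fin 5), x = Perm.sumCongr s.1 t.1 ∨
      x = Perm.sumCongr s.1 t.1 * (sumComm (Fin 5) (Fin 5) : Perm _) := by
  induction hx using Subgroup.closure_induction with
  | mem g hg =>
    rcases hg with ⟨s, t, rfl⟩ | rfl
    · exact ⟨s, t, Or.inl rfl⟩
    · exact ⟨1, 1, Or.inr (by simp)⟩
  | one => exact ⟨1, 1, Or.inl (by simp)⟩
  | mul g h _ _ hg hh =>
    obtain ⟨s, t, hg⟩ := hg
    obtain ⟨s', t', hh⟩ := hh
    rcases hg with rfl | rfl <;> rcases hh with rfl | rfl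
    · exact ⟨s * s', t * t', Or.inl (Equiv.ext fun y => by cases y <;> simp)⟩
    · exact ⟨s * s', t * t', Or.inr (Equiv.ext fun y => by cases y <;> simp)⟩
    · exact ⟨s * t', t * s', Or.inr (Equiv.ext fun y => by cases y <;> simp)⟩
    · exact ⟨s * t', t * s', Or.inl (Equiv.ext fun y => by cases y <;> simp)⟩
  | inv g _ hg =>
    obtain ⟨s, t, hg⟩ := hg
    rcases hg with rfl | rfl
    · exact ⟨s⁻¹, t⁻¹, Or.inl (inv_eq_of_mul_eq_one_right (Equiv.ext fun y => by cases y <;> simp))⟩
    · exact ⟨t⁻¹, s⁻¹, Or.inr (inv_eq_of_mul_eq_one_right (Equiv.ext fun y => by cases y <;> simp))⟩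

/-- A 2-group normalised by `tenGroup` inside it is trivial. -/
theorem tenGroup_no_normal_two (P : Subgroup tenGroup) [P.Normal] (hP : IsPGroup 2 P) : P = ⊥ := by
  haveI : Fact (Nat.Prime 2) := ⟨Nat.prime_two⟩
  let i : alternatingGroup (Fin 5) × alternatingGroup (Fin 5) →* tenGroup :=
    MonoidHom.mk' (fun x => ⟨tenHom (Perm.sumCongr x.1.1 x.2.1),
      _, Subgroup.subset_closure (Or.inl ⟨x.1, x.2, rfl⟩), rfl⟩) (fun x y => Subtype.ext (by
        show tenHom _ = tenHom _ * tenHom _
        rw [← map_mul]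
        exact congrArg tenHom (Equiv.ext fun y => by cases y <;> simp)))
  have hinj : Function.Injective i := fun x y h => by
    have h' := tenHom_injective (congrArg Subtype.val h)
    refine Prod.ext (Subtype.ext (Equiv.ext fun a => ?_)) (Subtype.ext (Equiv.ext fun a => ?_))
    · simpa using Equiv.Perm.congr_fun h' (Sum.inl a)
    · simpa using Equiv.Perm.congr_fun h' (Sum.inr a)
  set P₀ := P.comap i with hP₀
  have hp0 : IsPGroup 2 P₀ := hP.comap_of_injective i hinj
  have hproj : ∀ (f : alternatingGroup (Fin 5) × alternatingGroup (Fin 5) →* alternatingGroup (Fin 5)),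
      Function.Surjective f → ∀ x ∈ P₀, f x = 1 := by
    intro f hf x hx
    have hn : (P₀.map f).Normal := (inferInstance : P₀.Normal).map f hf
    rcases IsSimpleGroup.eq_bot_or_eq_top_of_normal (P₀.map f) hn with h | h
    · exact Subgroup.mem_bot.1 (h ▸ Subgroup.mem_map_of_mem f hx)
    · exfalso
      obtain ⟨k, hk⟩ := (hp0.map f).exists_card_eq
      rw [h, Subgroup.card_top] at hk
      have h5 := card_a5
      rw [h5] at hk
      have h3 : 3 ∣ 2 ^ k := hk ▸ (by norm_num)
      exact absurd (Nat.prime_three.dvd_of_dvd_pow h3) (by norm_num)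
  have hbot : ∀ x, i x ∈ P → x = 1 := fun x hx =>
    Prod.ext (hproj (MonoidHom.fst _ _) (fun a => ⟨(a, 1), rfl⟩) x hx)
      (hproj (MonoidHom.snd _ _) (fun a => ⟨(1, a), rfl⟩) x hx)
  refine (Subgroup.eq_bot_iff_forall _).2 fun g hg => ?_
  obtain ⟨w, hw, hwg⟩ := g.2
  obtain ⟨s, t, h | h⟩ := wreath_cases hw
  · have e : g = i (s, t) := Subtype.ext (by rw [← hwg, h]; rfl)
    rw [e] at hg ⊢
    rw [hbot _ hg, map_one]
  · exfalso
    let c : alternatingGroup (Fin 5) := ⟨swap 0 1 * swap 1 2, by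
      rw [Equiv.Perm.mem_alternatingGroup]; decide⟩
    have hmem : g * i (c, 1) * g⁻¹ * (i (c, 1))⁻¹ ∈ P := by
      have := mul_mem hg ((inferInstance : P.Normal).conj_mem _ (inv_mem hg) (i (c, 1)))
      simpa [mul_assoc] using this
    have e : g * i (c, 1) * g⁻¹ * (i (c, 1))⁻¹ = i (c⁻¹, t * c * t⁻¹) := by
      rw [mul_inv_eq_iff_eq_mul, mul_inv_eq_iff_eq_mul]
      refine Subtype.ext ?_
      show (g : Perm (Fin 10)) * tenHom _ = tenHom _ * tenHom _ * (g : Perm (Fin 10))
      rw [← hwg, h, ← map_mul, ← map_mul, ← map_mul]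
      refine congrArg tenHom (Equiv.ext fun y => ?_)
      cases y <;> simp
    rw [e] at hmem
    have h1 : c⁻¹ = 1 := congrArg Prod.fst (hbot _ hmem)
    have h2 := Equiv.Perm.congr_fun (congrArg Subtype.val (inv_eq_one.1 h1)) (0 : Fin 5)
    revert h2
    decide

/-- The nonzero vector of a number. -/
def vec7 (k : Fin 7) : Fin 3 → ZMod 2 := fun i =>
  if (k.val + 1).testBit i.val then 1 else 0

/-- The number of a nonzero vector. -/
def num7 (v : Fin 3 → ZMod 2) : Fin 7 :=
  Fin.ofNat 7 ((v 0).val + 2 * (v 1).val + 4 * (v 2).val - 1)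

theorem num7_vec7 : ∀ k, num7 (vec7 k) = k := by decide

theorem vec7_num7 : ∀ v : Fin 3 → ZMod 2, v ≠ 0 → vec7 (num7 v) = v := by decide

theorem vec7_ne : ∀ k, vec7 k ≠ 0 := by decide

theorem mulVec_vec7_ne (A : Matrix.SpecialLinearGroup (Fin 3) (ZMod 2)) (k : Fin 7) :
    A.1.mulVec (vec7 k) ≠ 0 := fun h => vec7_ne k (by
  have := congrArg ((A⁻¹).1.mulVec) h
  rwa [Matrix.mulVec_mulVec, ← Matrix.SpecialLinearGroup.coe_mul, inv_mul_cancel,
    Matrix.SpecialLinearGroup.coe_one, Matrix.one_mulVec, Matrix.mulVec_zero] at this)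

/-- The action of `SL(3, 2)` on the seven numbers. -/
def sevenHom : Matrix.SpecialLinearGroup (Fin 3) (ZMod 2) →* Perm (Fin 7) :=
  MonoidHom.mk' (fun A =>
    { toFun := fun k => num7 (A.1.mulVec (vec7 k))
      invFun := fun k => num7 ((A⁻¹).1.mulVec (vec7 k))
      left_inv := fun k => by
        show num7 ((A⁻¹).1.mulVec (vec7 (num7 (A.1.mulVec (vec7 k))))) = k
        rw [vec7_num7 _ (mulVec_vec7_ne A k), Matrix.mulVec_mulVec,
          ← Matrix.SpecialLinearGroup.coe_mul, inv_mul_cancel,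
          Matrix.SpecialLinearGroup.coe_one, Matrix.one_mulVec, num7_vec7]
      right_inv := fun k => by
        show num7 (A.1.mulVec (vec7 (num7 ((A⁻¹).1.mulVec (vec7 k))))) = k
        rw [vec7_num7 _ (mulVec_vec7_ne A⁻¹ k), Matrix.mulVec_mulVec,
          ← Matrix.SpecialLinearGroup.coe_mul, mul_inv_cancel,
          Matrix.SpecialLinearGroup.coe_one, Matrix.one_mulVec, num7_vec7] })
    (fun A B => Equiv.ext fun k => by
      simp only [Equiv.Perm.mul_apply, Equiv.coe_fn_mk]
      rw [vec7_num7 _ (mulVec_vec7_ne B k), Matrix.mulVec_mulVec,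
        ← Matrix.SpecialLinearGroup.coe_mul])

theorem sevenHom_injective : Function.Injective sevenHom := by
  refine (injective_iff_map_eq_one _).2 fun A hA => Subtype.ext ?_
  have hv : ∀ v : Fin 3 → ZMod 2, A.1.mulVec v = v := by
    intro v
    by_cases hv : v = 0
    · rw [hv, Matrix.mulVec_zero]
    · have h : num7 (A.1.mulVec (vec7 (num7 v))) = num7 v :=
        Equiv.Perm.congr_fun hA (num7 v)
      have h' := congrArg vec7 h
      rwa [vec7_num7 _ (mulVec_vec7_ne A _), vec7_num7 v hv] at h'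
  exact Matrix.ext_iff_mulVec.2 fun v => by
    rw [hv, Matrix.SpecialLinearGroup.coe_one, Matrix.one_mulVec]

/-- The determinant of order three written out. -/
def det7 (M : Fin 3 → Fin 3 → ZMod 2) : ZMod 2 :=
  M 0 0 * M 1 1 * M 2 2 - M 0 0 * M 1 2 * M 2 1 - M 0 1 * M 1 0 * M 2 2 +
    M 0 1 * M 1 2 * M 2 0 + M 0 2 * M 1 0 * M 2 1 - M 0 2 * M 1 1 * M 2 0

/-- The matrix as an element. -/
def mat7 (M : Fin 3 → Fin 3 → ZMod 2) (h : det7 M = 1) :
    Matrix.SpecialLinearGroup (Fin 3) (ZMod 2) :=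
  ⟨Matrix.of M, by rw [Matrix.det_fin_three]; exact h⟩

theorem det7_of (A : Matrix.SpecialLinearGroup (Fin 3) (ZMod 2)) : det7 (fun i j => A.1 i j) = 1 :=
  (Matrix.det_fin_three A.1).symm.trans A.2

theorem sevenHom_transitive (a b : Fin 7) : ∃ g ∈ sevenHom.range, g a = b := by
  obtain ⟨M, hM, e⟩ := (by decide +kernel : ∀ a b : Fin 7, ∃ M : Fin 3 → Fin 3 → ZMod 2,
    det7 M = 1 ∧ num7 (fun i => M i 0 * vec7 a 0 + M i 1 * vec7 a 1 + M i 2 * vec7 a 2) = b) a b
  refine ⟨_, ⟨mat7 M hM, rfl⟩, ?_⟩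
  show num7 ((Matrix.of M).mulVec (vec7 a)) = b
  rw [← e]
  congr 1
  funext i
  simp [Matrix.mulVec, dotProduct, Fin.sum_univ_three]

theorem card_sevenGroup : Nat.card sevenHom.range = 168 := by
  rw [← Nat.card_congr (MonoidHom.ofInjective sevenHom_injective).toEquiv,
    CfsgLib.SmallIso.card_sl_three_two]

end CfsgLib.MonsterCent
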