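import Cfsg.Agent.MonsterCent.Kernel
import Cfsg.Agent.MonsterCent.Targets
import Cfsg.Agent.MonsterCent.CheckThreeClasses
import Cfsg.Agent.MonsterCent.CheckThreeNorms
import Cfsg.Agent.MonsterCent.CheckThreeMathieu
import Cfsg.Agent.MonsterCent.CheckThreeGensLow
import Cfsg.Agent.MonsterCent.CheckThreeGensHigh
import Cfsg.Agent.MonsterCent.CheckThreeGensForm

/-!
The centraliser of the fixed-point-free permutation of order three.
-/

set_option autoImplicit false
set_option maxRecDepth 100000

namespace CfsgLib.MonsterCent.Three

open Cfsg CfsgLib.Leech CfsgLib.Mathieu CfsgLib.Golay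

theorem fix_ok : Fix.OK fixData := ⟨fix_check, dec_check, ix_check, rep_check⟩

theorem frames_in_orbit : (fixData.fr.all fun i => cenData.orb.contains i) = true ∧
    fixData.fr.contains 1 = true ∧ 1 < 2 ^ fixData.r := by
  decide +kernel

theorem cen_ok : Cen.OK cenData where
  toOK := fix_ok
  cent := cent_check
  cover := cover_check
  fixc := fixc_check
  stab := stab_check
  gensok := Cen.gensOK_of_parts cenData gens_check_form gens_check_low gens_check_high
  orbok := orb_check
  reach δ hδ := by
    have h := fix_ok.act_frame hδ frames_in_orbit.2.2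
      (List.contains_iff_mem.1 frames_in_orbit.2.1)
    exact List.contains_iff_mem.1 (List.all_eq_true.1 frames_in_orbit.1 _ h)

theorem blk_ok : Blk.OK blkData := ⟨cen_ok, blk_check⟩

theorem target_cover : ∀ a b c : Fin 9, a ≠ b → b ≠ c → a ≠ c →
    ((List.finRange 9).map fun k => ((Equiv.swap a b * Equiv.swap b c) k).val) ∈
      targets.map Prod.fst := by
  decide +kernel

theorem size_eq : cenData.orb.length * (cenData.fixC.length * cenData.cent.length) = 1088640 ∧
    fixData.p = 3 ∧ fixData.r = 8 := by
  decide +kernel

theorem range_ker : (Blk.rho blk_ok).range = alternatingGroup (Fin 9) ∧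
    (Blk.rho blk_ok).ker = MonsterCent13.base fixData.el := by
  have hp : fixData.p.Prime := by rw [size_eq.2.1]; norm_num
  refine blk_ok.range_ker hp (alternatingGroup (Fin 9))
    (alternating_le_of_triples fun a b c h1 h2 h3 => ?_) ?_
  · exact blk_ok.target_mem target_check (target_cover a b c h1 h2 h3)
  · show cenData.orb.length * (cenData.fixC.length * cenData.cent.length) ≤ 2 * fixData.p * _
    rw [size_eq.1, size_eq.2.1]
    show 1088640 ≤ 2 * 3 * Nat.card (alternatingGroup (Fin 9))
    rw [nat_card_alternatingGroup, Nat.card_eq_fintype_card, Fintype.card_fin]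
    decide

/-- The centraliser modulo its base is the alternating group. -/
theorem exists_equiv : Nonempty (Subgroup.centralizer ({fixData.el} : Set Co0) ⧸
    MonsterCent13.base fixData.el ≃* alternatingGroup (Fin 9)) :=
  blk_ok.exists_quot_equiv range_ker.1 range_ker.2

end CfsgLib.MonsterCent.Three
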