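import Cfsg.Agent.MonsterCent.Classes

/-!
The action of the centraliser of the permutation on the fixed classes, and the centraliser inside
`M24` and the code.
-/

set_option autoImplicit false
set_option maxRecDepth 20000

namespace CfsgLib.MonsterCent

open Cfsg CfsgLib.Leech CfsgLib.Mathieu CfsgLib.Golay CfsgLib.StdCo0

namespace Fix

variable (D : Fix)

/-- The centraliser of the permutation in the automorphism group. -/
noncomputable abbrev cen : Subgroup Co0 := Subgroup.centralizer {D.el}

theorem mem_cen {δ : Co0} : δ ∈ D.cen ↔ δ * D.el = D.el * δ :=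
  Subgroup.mem_centralizer_singleton_iff

/-- The action on the classes. -/
noncomputable def act (δ : Co0) (i : ℕ) : ℕ := D.idx (δ • D.comb i)

variable {D}

theorem fixed_smul {δ : Co0} (hδ : δ ∈ D.cen) {v : leechLattice} (hv : D.Fixed v) :
    D.Fixed (δ • v) := by
  show Cg (D.el • δ • v) (δ • v)
  rw [← mul_smul, ← D.mem_cen.1 hδ, mul_smul]
  exact hv.smul δ

variable (hD : D.OK)
include hD

theorem OK.act_spec {δ : Co0} (hδ : δ ∈ D.cen) (i : ℕ) :
    Cg (δ • D.comb i) (D.comb (D.act δ i)) ∧ D.act δ i < 2 ^ D.r :=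
  hD.cg_comb_idx (fixed_smul hδ (hD.fixed_comb i))

theorem OK.act_mul {δ ε : Co0} (hε : ε ∈ D.cen) (i : ℕ) :
    D.act (δ * ε) i = D.act δ (D.act ε i) := by
  rw [act, act, mul_smul]
  exact hD.idx_cg ((hD.act_spec hε i).1.smul δ)

theorem OK.act_one {i : ℕ} (hi : i < 2 ^ D.r) : D.act 1 i = i := by
  rw [act, one_smul, hD.idx_comb hi]

theorem OK.act_xor {δ : Co0} (hδ : δ ∈ D.cen) (i j : ℕ) :
    D.act δ (i ^^^ j) = D.act δ i ^^^ D.act δ j := by
  rw [act, hD.idx_cg ((hD.comb_xor i j).symm.smul δ), co0_map_add,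
    hD.idx_cg (((hD.act_spec hδ i).1.add (hD.act_spec hδ j).1).trans (hD.comb_xor _ _)),
    hD.idx_comb (Nat.xor_lt_two_pow (hD.act_spec hδ i).2 (hD.act_spec hδ j).2)]

theorem OK.act_frame {δ : Co0} (hδ : δ ∈ D.cen) {i : ℕ} (hi : i < 2 ^ D.r) (hf : i ∈ D.fr) :
    D.act δ i ∈ D.fr :=
  (hD.frame_iff (hD.act_spec hδ i).2).1
    (((Rel.of_cg (hD.act_spec hδ i).1.symm).trans (Rel.of_smul δ _).symm).trans
      ((hD.frame_iff hi).2 hf))

omit hD

/-- A word commutes with the permutation. -/
def commOK (D : Fix) (w : List Step) : Bool :=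
  w.all stepValid && (List.range 24).all fun j =>
    runL w (permL (D.powInv 1) (toL (axisVec (i2p j) : GolayPt → ℤ))) ==
      permL (D.powInv 1) (runL w (toL (axisVec (i2p j) : GolayPt → ℤ)))

/-- The images of a list of classes under a word. -/
def imgOK (D : Fix) (w : List Step) (L t : List ℕ) : Bool :=
  L.all fun i => decide (i < 2 ^ D.r) && decide (t.getD i 0 < 2 ^ D.r) &&
    cgL (runL w (D.repL i)) (D.repL (t.getD i 0))

/-- A table of images is additive. -/
def linOK (D : Fix) (t : List ℕ) : Bool :=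
  t.getD 0 0 == 0 && (List.range (2 ^ D.r)).all fun i => i == 0 ||
    (List.range D.r).any fun k => decide (2 ^ k ≤ i) && ((i - 2 ^ k) ^^^ 2 ^ k == i) &&
      t.getD i 0 == (t.getD (i - 2 ^ k) 0 ^^^ t.getD (2 ^ k) 0)

/-- The basic classes. -/
def units (D : Fix) : List ℕ := (List.range D.r).map (2 ^ ·)

include hD

theorem OK.word_mem {w : List Step} (h : commOK D w = true) : wordEl w ∈ D.cen := by
  simp only [commOK, Bool.and_eq_true, List.all_eq_true, List.mem_range, beq_iff_eq] at h
  obtain ⟨hv, hj⟩ := h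
  rw [mem_cen]
  refine co0_ext fun q => Subtype.ext (toL_injective ?_)
  have hv' : w.all stepValid = true := List.all_eq_true.2 hv
  have h1 : ∀ v : leechLattice, toL ((D.el • v : leechLattice) : GolayPt → ℤ) =
      permL (D.powInv 1) (toL (v : GolayPt → ℤ)) := fun v => by
    rw [← hD.toL_el_pow 1 hD.facts.1, _root_.pow_one]
  rw [mul_smul, mul_smul, toL_word hv', h1, h1, toL_word hv']
  have := hj (p2i q) (p2i_lt q)
  rwa [i2p_p2i] at this

theorem OK.word_act {w : List Step} (hv : commOK D w = true) {L t : List ℕ}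
    (h : imgOK D w L t = true) {i : ℕ} (hi : i ∈ L) : D.act (wordEl w) i = t.getD i 0 := by
  have h' := List.all_eq_true.1 h i hi
  simp only [Bool.and_eq_true, decide_eq_true_eq] at h'
  obtain ⟨⟨a, b⟩, c⟩ := h'
  obtain ⟨oa, ca⟩ := hD.cg_rep a
  obtain ⟨ob, cb⟩ := hD.cg_rep b
  simp only [commOK, Bool.and_eq_true] at hv
  rw [act, hD.idx_cg ((ca.symm.smul _).trans
    ((cg_of_cgL (v := vecL (D.repL (t.getD i 0))) (by rwa [toL_word hv.1, toL_vecL oa, toL_vecL ob])).trans cb)),
    hD.idx_comb b]

theorem OK.word_act_all {w : List Step} (hv : commOK D w = true) {t : List ℕ}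
    (h : imgOK D w (units D) t = true) (hl : linOK D t = true) {i : ℕ} (hi : i < 2 ^ D.r) :
    D.act (wordEl w) i = t.getD i 0 := by
  simp only [linOK, Bool.and_eq_true, beq_iff_eq, List.all_eq_true, List.mem_range,
    Bool.or_eq_true, List.any_eq_true, decide_eq_true_eq] at hl
  have hm := hD.word_mem hv
  induction i using Nat.strong_induction_on with
  | _ i ih =>
    rcases Nat.eq_zero_or_pos i with rfl | hpos
    · rw [hl.1]
      have := hD.act_xor hm 0 0
      rwa [Nat.xor_self, Nat.xor_self] at this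
    · obtain ⟨k, hk, ⟨hle, hx⟩, ht⟩ := (hl.2 i hi).resolve_left (by omega)
      have hp := Nat.two_pow_pos k
      calc D.act (wordEl w) i = D.act (wordEl w) ((i - 2 ^ k) ^^^ 2 ^ k) := by rw [hx]
        _ = t.getD (i - 2 ^ k) 0 ^^^ t.getD (2 ^ k) 0 := by
          rw [hD.act_xor hm, ih _ (by omega) (by omega),
            hD.word_act hv h (i := 2 ^ k) (List.mem_map.2 ⟨k, List.mem_range.2 hk, rfl⟩)]
        _ = t.getD i 0 := ht.symm

end Fix

/-- The data of the centraliser. -/
structure Cen extends Fix where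
  /-- The points from which the first five are reached. -/
  seeds : List ℕ
  /-- Seed and exponent for each of the first five points. -/
  five : List (ℕ × ℕ)
  /-- Elements moving the first seed to each possible image, as tables and words. -/
  tr : List (List ℕ × List ℕ)
  /-- Elements fixing the first seed, as tables and words. -/
  st : List (List ℕ × List ℕ)
  /-- Maps showing that the other images of the seeds do not occur. -/
  bad : List (List ℕ)
  /-- Generators of the centraliser in `M24`. -/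
  centGen : List (List ℕ)
  /-- The fixed code words. -/
  fixC : List ℕ
  /-- Words generating the orbit of the axis. -/
  gens : List (List Step)
  /-- Their images on the frame classes. -/
  imgs : List (List ℕ)
  /-- The orbit of the axis. -/
  orb : List ℕ
  /-- Parent and generator of each member of the orbit. -/
  orbPar : List (ℕ × ℕ)

namespace Cen

variable (D : Cen)

/-- The images of the first five points forced by the images of the seeds. -/
def forced (im : List ℕ) : List ℕ :=
  D.five.map fun x => app (D.pow x.2) (im.getD x.1 0)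

/-- All tuples of points. -/
def tuples : ℕ → List (List ℕ)
  | 0 => [[]]
  | n + 1 => (List.range 24).flatMap fun a => (tuples n).map (a :: ·)

/-- Commuting with the permutation. -/
def commTab (t : List ℕ) : Bool := compTab t (D.pow 1) == compTab (D.pow 1) t

/-- The first seed. -/
def seed₀ : ℕ := D.seeds.headD 0

/-- The product of generators. -/
def genWord : List ℕ → List ℕ
  | [] => idTab
  | n :: ns => compTab (D.centGen.getD n []) (genWord ns)

/-- The centraliser in `M24`. -/
def cent : List (List ℕ) := (D.tr.map Prod.fst).flatMap fun t => (D.st.map Prod.fst).map (compTab t)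

/-- The checks on the centraliser in `M24`. -/
def centOK : Bool :=
  D.five.length == 5 &&
  (List.range 5).all (fun i =>
    let x := D.five.getD i (0, 0)
    decide (x.1 < D.seeds.length) && decide (x.2 < D.p) &&
      app (D.pow x.2) (D.seeds.getD x.1 0) == i) &&
  D.seeds.all (fun a => decide (a < 24)) && decide (0 < D.seeds.length) &&
  (D.tr ++ D.st).all (fun x => x.2.all (fun n => decide (n < D.centGen.length)) &&
    D.genWord x.2 == x.1) &&
  D.centGen.all (fun t => tabInM24 t && D.commTab t)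

/-- The possible images of the seeds of an element fixing the first seed. -/
def seedImages : List (List ℕ) :=
  (tuples (D.seeds.length - 1)).map (D.seed₀ :: ·)

/-- A map showing that one tuple of images does not occur. -/
def badOK (im k : List ℕ) : Bool :=
  tabInM24 k && (List.range 5).all (fun i => app k i == (D.forced im).getD i 0) &&
    fixList5.all fun f => !D.commTab (compTab k f)

/-- The seeds determine an element up to the pointwise stabiliser of five points. -/
def coverOK : Bool :=
  (List.range 24).all (fun a =>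
    (app (D.pow 1) a == a && app (D.pow 1) D.seed₀ != D.seed₀) ||
      D.tr.any fun x => app x.1 D.seed₀ == a) &&
  (List.range D.seedImages.length).all (fun n =>
    let im := D.seedImages.getD n []
    !decide (D.forced im).Nodup || (D.st.any fun x => D.seeds.map (app x.1) == im) ||
      D.badOK im (D.bad.getD n [])) &&
  fixList5.all (fun f => !D.commTab f || f == idTab ||
    D.st.all fun x => (D.st.map Prod.fst).contains (compTab x.1 f))

/-- The fixed code words. -/
def fixCOK : Bool :=
  D.fixC.all inCode &&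
  allSpan (fun m => !(maskImage (D.pow 1) m == m) || D.fixC.contains m) basisMasks 0


/-- The generators contain the stabiliser's generators. -/
def stabIn : Bool :=
  (D.centGen.all fun g => D.gens.any fun w =>
    match w with
    | [some (C, t, _)] => C == 0 && t == g
    | _ => false) &&
  D.fixC.all fun m => D.gens.any fun w =>
    match w with
    | [some (C, t, _)] => C == m && t == idTab
    | _ => false

/-- The check on the images of one generator. -/
def genOK (n : ℕ) : Bool :=
  Fix.imgOK D.toFix (D.gens.getD n []) (Fix.units D.toFix) (D.imgs.getD n []) &&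
    Fix.linOK D.toFix (D.imgs.getD n [])

/-- The checks on the generators other than their images. -/
def gensFormOK : Bool :=
  D.gens.all (Fix.commOK D.toFix) && D.imgs.length == D.gens.length &&
  D.fr.all (fun i => decide (i < 2 ^ D.r))

/-- The checks on the generators. -/
def gensOK : Bool :=
  D.gens.all (Fix.commOK D.toFix) && D.imgs.length == D.gens.length &&
  (List.range D.gens.length).all (fun n =>
    Fix.imgOK D.toFix (D.gens.getD n []) (Fix.units D.toFix) (D.imgs.getD n []) &&
      Fix.linOK D.toFix (D.imgs.getD n [])) &&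
  D.fr.all (fun i => decide (i < 2 ^ D.r))

theorem gensOK_of_parts {a : ℕ} (hf : D.gensFormOK = true)
    (h1 : (List.range a).all D.genOK = true)
    (h2 : (List.range' a (D.gens.length - a)).all D.genOK = true) : D.gensOK = true := by
  simp only [gensFormOK, Bool.and_eq_true] at hf
  simp only [gensOK, Bool.and_eq_true, List.all_eq_true, List.mem_range]
  refine ⟨⟨⟨fun w hw => List.all_eq_true.1 hf.1.1 w hw, hf.1.2⟩, fun n hn => ?_⟩,
    fun i hi => List.all_eq_true.1 hf.2 i hi⟩
  have : D.genOK n = true := by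
    by_cases hna : n < a
    · exact List.all_eq_true.1 h1 n (List.mem_range.2 hna)
    · exact List.all_eq_true.1 h2 n (List.mem_range'_1.2 ⟨by omega, by omega⟩)
  simpa [genOK, Bool.and_eq_true] using this

/-- The checks on the orbit. -/
def orbOK : Bool :=
  D.orb.getD 0 0 == 1 && decide (0 < D.orb.length) && D.orb.all (D.fr.contains ·) &&
  cgL (combL D.bs 1) (toL (axisVec none : GolayPt → ℤ)) &&
  (List.range D.orb.length).all (fun j => j == 0 ||
    let x := D.orbPar.getD j (0, 0)
    decide (x.1 < j) && decide (x.2 < D.gens.length) &&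
      D.orb.getD j 0 == (D.imgs.getD x.2 []).getD (D.orb.getD x.1 0) 0)

/-- All checks hold. -/
structure OK : Prop extends Fix.OK D.toFix where
  cent : D.centOK = true
  cover : D.coverOK = true
  fixc : D.fixCOK = true
  stab : D.stabIn = true
  gensok : D.gensOK = true
  orbok : D.orbOK = true
  /-- The frame classes reached by the centraliser are those of the orbit. -/
  reach : ∀ δ ∈ D.toFix.cen, D.toFix.act δ 1 ∈ D.orb

variable {D}

theorem mrep_mon' {x : ℕ × List ℕ} (hC : inCode x.1 = true) (ht : Rep M24 x.2) :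
    MRep (mon x) x.1 x.2 := by
  obtain ⟨σ, hσ, e⟩ := ht
  have h : ∃ g, MRep g x.1 x.2 :=
    ⟨monomial (⟨wordOf (ofMask x.1), mem_supports_iff_wordOf.1
      (mem_supports_iff.2 (by rwa [toMask_ofMask (inCode_lt hC)]))⟩, ⟨σ, hσ⟩), _, rfl, by
      show toMask (support₂ (wordOf (ofMask x.1))) = x.1
      rw [support₂_wordOf, toMask_ofMask (inCode_lt hC)], e⟩
  rw [mon, dif_pos h]
  exact h.choose_spec

variable (hD : D.OK)
include hD

omit hD in
theorem axis_toL_perm (σ : M24) (p : GolayPt) : permHom σ • axisVec p = axisVec (σ.1 p) := by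
  refine Subtype.ext (funext fun i => ?_)
  simp [permHom_apply, axisVec, single, Equiv.symm_apply_eq]

theorem OK.sig_comm {t : List ℕ} {g : Equiv.Perm GolayPt} (hg : toTab g = t)
    (h : D.commTab t = true) : g * D.sig.1 = D.sig.1 * g := by
  apply toTab_injective
  rw [toTab_mul, toTab_mul, hD.toOK.toTab_sig, hg]
  simpa [commTab] using h

theorem OK.cent_facts :
    (∀ t ∈ D.centGen, tabInM24 t = true ∧ D.commTab t = true) ∧ D.five.length = 5 ∧
    (∀ i < 5, (D.five.getD i (0, 0)).1 < D.seeds.length ∧ (D.five.getD i (0, 0)).2 < D.p ∧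
      app (D.pow (D.five.getD i (0, 0)).2) (D.seeds.getD (D.five.getD i (0, 0)).1 0) = i) ∧
    (∀ a ∈ D.seeds, a < 24) ∧ D.seeds ≠ [] ∧
    (∀ x ∈ D.tr ++ D.st, (∀ n ∈ x.2, n < D.centGen.length) ∧ D.genWord x.2 = x.1) := by
  have h := hD.cent
  simp only [centOK, Bool.and_eq_true, beq_iff_eq, List.all_eq_true, List.mem_range,
    decide_eq_true_eq] at h
  obtain ⟨⟨⟨⟨⟨a, b⟩, c⟩, d⟩, f⟩, g⟩ := h
  exact ⟨g, a, fun i hi => ⟨(b i hi).1.1, (b i hi).1.2, (b i hi).2⟩, c,
    List.ne_nil_of_length_pos d, f⟩

theorem OK.word_rep {w : List ℕ} (hw : ∀ n ∈ w, n < D.centGen.length) :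
    ∃ k ∈ M24, toTab k = D.genWord w ∧ k * D.sig.1 = D.sig.1 * k := by
  induction w with
  | nil => exact ⟨1, M24.one_mem, toTab_one, by rw [one_mul, mul_one]⟩
  | cons n w ih =>
    obtain ⟨k, hk, e, c⟩ := ih fun m hm => hw m (List.mem_cons_of_mem _ hm)
    have hn := hw n List.mem_cons_self
    have hmem : D.centGen.getD n [] ∈ D.centGen := by
      rw [List.getD_eq_getElem?_getD, List.getElem?_eq_getElem hn, Option.getD_some]
      exact List.getElem_mem hn
    obtain ⟨g1, g2⟩ := hD.cent_facts.1 _ hmem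
    obtain ⟨g, hg, eg⟩ := rep_of_tabInM24 g1
    refine ⟨g * k, M24.mul_mem hg hk, by rw [toTab_mul, eg, e, genWord], ?_⟩
    exact Commute.mul_left (hD.sig_comm eg g2 : Commute g D.sig.1) c

theorem OK.part_rep {t : List ℕ} (ht : t ∈ (D.tr ++ D.st).map Prod.fst) :
    ∃ k ∈ M24, toTab k = t ∧ k * D.sig.1 = D.sig.1 * k := by
  obtain ⟨x, hx, rfl⟩ := List.mem_map.1 ht
  obtain ⟨h1, h2⟩ := hD.cent_facts.2.2.2.2.2 x hx
  rw [← h2]
  exact hD.word_rep h1

theorem OK.cent_rep {t : List ℕ} (ht : t ∈ D.cent) :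
    ∃ k ∈ M24, toTab k = t ∧ k * D.sig.1 = D.sig.1 * k := by
  simp only [Cen.cent, List.mem_flatMap, List.mem_map] at ht
  obtain ⟨_, ⟨x, hx, rfl⟩, _, ⟨y, hy, rfl⟩, rfl⟩ := ht
  obtain ⟨a, ha, ea, ca⟩ := hD.part_rep (List.mem_map_of_mem (List.mem_append_left _ hx))
  obtain ⟨b, hb, eb, cb⟩ := hD.part_rep (List.mem_map_of_mem (List.mem_append_right _ hy))
  exact ⟨a * b, M24.mul_mem ha hb, by rw [toTab_mul, ea, eb],
    Commute.mul_left (ca : Commute a D.sig.1) cb⟩

theorem OK.cent_tab {t : List ℕ} (ht : t ∈ D.cent) : ∃ k ∈ M24, toTab k = t := by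
  obtain ⟨k, hk, e, -⟩ := hD.cent_rep ht
  exact ⟨k, hk, e⟩

/-- An element of the centraliser fixing the first seed is listed. -/
theorem OK.mem_st {g : Equiv.Perm GolayPt} (hg : g ∈ M24)
    (hc : g * D.sig.1 = D.sig.1 * g) (hfix : g (i2p D.seed₀) = i2p D.seed₀) :
    toTab g ∈ D.st.map Prod.fst := by
  obtain ⟨-, hlen, hfive, hseed, hne, -⟩ := hD.cent_facts
  have hn : ∀ n : ℕ, g * (D.sig ^ n).1 = (D.sig ^ n).1 * g := fun n => by
    rw [SubgroupClass.coe_pow]; exact Commute.pow_right hc n
  let im := D.seeds.map fun a => p2i (g (i2p a))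
  have hforced : ∀ i < 5, (D.forced im).getD i 0 = p2i (g (i2p i)) := by
    intro i hi
    obtain ⟨h1, h2, h3⟩ := hfive i hi
    have hi' : i < D.five.length := hlen ▸ hi
    rw [forced, List.getD_eq_getElem?_getD, List.getElem?_map, List.getElem?_eq_getElem hi',
      Option.map_some, Option.getD_some]
    rw [List.getD_eq_getElem?_getD, List.getElem?_eq_getElem hi', Option.getD_some] at h1 h2 h3
    set a := D.seeds.getD D.five[i].1 0 with ha
    have hma : a ∈ D.seeds := by
      rw [ha, List.getD_eq_getElem?_getD, List.getElem?_eq_getElem h1, Option.getD_some]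
      exact List.getElem_mem h1
    have hima : im.getD D.five[i].1 0 = p2i (g (i2p a)) := by
      rw [ha]; simp [im, List.getD_eq_getElem?_getD, h1]
    rw [hima, ← congrArg (fun k => p2i (g (i2p k))) h3]
    rw [← Nat.mod_eq_of_lt h2, ← hD.toOK.toTab_pow,
      app_toTab _ _ (p2i_lt _), app_toTab _ _ (hseed a hma), i2p_p2i, i2p_p2i]
    exact congrArg p2i (Equiv.Perm.congr_fun (hn D.five[i].2).symm (i2p a))
  have hnd : (D.forced im).Nodup := by
    have hl : (D.forced im).length = 5 := by rw [forced, List.length_map, hlen]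
    rw [List.nodup_iff_injective_getElem]
    intro i j e
    have key : ∀ k : Fin (D.forced im).length, (D.forced im)[k] = p2i (g (i2p k)) := fun k => by
      rw [← hforced k (hl ▸ k.2), List.getD_eq_getElem?_getD, List.getElem?_eq_getElem k.2,
        Option.getD_some]
      rfl
    replace e : (D.forced im)[i] = (D.forced im)[j] := e
    rw [key, key] at e
    exact Fin.ext (i2p_inj (by omega) (by omega) (g.injective (p2i_injective e)))
  have hc' := hD.cover
  simp only [coverOK, Bool.and_eq_true, List.all_eq_true, Bool.or_eq_true, Bool.not_eq_true',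
    decide_eq_false_iff_not, List.any_eq_true, beq_iff_eq, List.contains_eq_mem,
    decide_eq_true_eq, List.mem_range] at hc'
  obtain ⟨⟨-, hcov⟩, hfixl⟩ := hc'
  have himm : im ∈ D.seedImages := by
    have hL : ∀ L : List ℕ, (∀ a ∈ L, a < 24) → L ∈ tuples L.length := by
      intro L hL
      induction L with
      | nil => simp [tuples]
      | cons a L ih =>
        simp only [tuples, List.length_cons, List.mem_flatMap, List.mem_range, List.mem_map]
        exact ⟨a, hL a List.mem_cons_self, L, ih fun b hb => hL b (List.mem_cons_of_mem _ hb), rfl⟩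
    cases hs : D.seeds with
    | nil => exact absurd hs hne
    | cons a L =>
      have ha : D.seed₀ = a := by rw [seed₀, hs]; rfl
      rw [seedImages, hs, List.mem_map]
      refine ⟨L.map fun a => p2i (g (i2p a)), ?_, ?_⟩
      · have := hL (L.map fun a => p2i (g (i2p a))) fun b hb => by
          obtain ⟨x, -, rfl⟩ := List.mem_map.1 hb; exact p2i_lt _
        simpa using this
      · show D.seed₀ :: _ = List.map _ D.seeds
        rw [hs, List.map_cons, ha]
        rw [ha] at hfix
        rw [hfix, p2i_i2p a (hseed a (by rw [hs]; exact List.mem_cons_self))]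
  obtain ⟨n, hn', hne'⟩ := List.getElem_of_mem himm
  have hcov' := hcov n hn'
  rw [List.getD_eq_getElem?_getD, List.getElem?_eq_getElem hn', Option.getD_some, hne'] at hcov'
  rcases hcov' with (h | ⟨x, hx, e⟩) | hbad
  · exact absurd hnd h
  · obtain ⟨κ, hκ, eκ, hκc⟩ := hD.part_rep (List.mem_map_of_mem (List.mem_append_right D.tr hx))
    have hagree : ∀ a ∈ D.seeds, κ (i2p a) = g (i2p a) := by
      intro a ha
      have : app x.1 a = p2i (g (i2p a)) := List.map_inj_left.1 e a ha
      rw [← eκ, app_toTab _ _ (hseed a ha)] at this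
      exact p2i_injective this
    have hf : κ⁻¹ * g ∈ base7Fix 5 := by
      refine mem_base7Fix.2 ⟨M24.mul_mem (M24.inv_mem hκ) hg, fun b hb => ?_⟩
      have hb5 : b < 5 := by
        have : b ∈ [0, 1, 2, 3, 4] := by simpa [base7] using hb
        simp at this; omega
      obtain ⟨h1, h2, h3⟩ := hfive b hb5
      set x' := D.five.getD b (0, 0)
      have hma : D.seeds.getD x'.1 0 ∈ D.seeds := by
        rw [List.getD_eq_getElem?_getD, List.getElem?_eq_getElem h1, Option.getD_some]
        exact List.getElem_mem h1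
      rw [← Nat.mod_eq_of_lt h2, ← hD.toOK.toTab_pow, app_toTab _ _ (hseed _ hma)] at h3
      have hb' : i2p b = (D.sig ^ x'.2).1 (i2p (D.seeds.getD x'.1 0)) := by
        rw [← h3, i2p_p2i]
      have hκn : κ * (D.sig ^ x'.2).1 = (D.sig ^ x'.2).1 * κ := by
        rw [SubgroupClass.coe_pow]; exact Commute.pow_right hκc x'.2
      rw [Equiv.Perm.mul_apply, Equiv.Perm.inv_eq_iff_eq, hb', ← Equiv.Perm.mul_apply, hn,
        Equiv.Perm.mul_apply, ← hagree _ hma, ← Equiv.Perm.mul_apply κ, hκn, Equiv.Perm.mul_apply]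
    have hfc : (κ⁻¹ * g) * D.sig.1 = D.sig.1 * (κ⁻¹ * g) :=
      (Commute.inv_left hκc).mul_left hc
    rcases hfixl _ (toTab_mem_fixList5 hf) with (h | h) | h
    · exfalso
      have : D.commTab (toTab (κ⁻¹ * g)) = true := by
        rw [commTab, beq_iff_eq, ← hD.toOK.toTab_sig, ← toTab_mul, ← toTab_mul, hfc]
      rw [this] at h
      exact Bool.noConfusion h
    · rw [← toTab_one] at h
      rw [← inv_mul_eq_one.1 (toTab_injective h), eκ]
      exact List.mem_map_of_mem hx
    · have := h _ hx
      rwa [← eκ, ← toTab_mul, mul_inv_cancel_left] at this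
  · exfalso
    simp only [badOK, Bool.and_eq_true, List.all_eq_true, List.mem_range, beq_iff_eq,
      Bool.not_eq_true'] at hbad
    obtain ⟨⟨hk1, hk2⟩, hk3⟩ := hbad
    obtain ⟨κ, hκ, eκ⟩ := rep_of_tabInM24 hk1
    have hf : κ⁻¹ * g ∈ base7Fix 5 := by
      refine mem_base7Fix.2 ⟨M24.mul_mem (M24.inv_mem hκ) hg, fun b hb => ?_⟩
      have hb5 : b < 5 := by
        have : b ∈ [0, 1, 2, 3, 4] := by simpa [base7] using hb
        simp at this; omega
      have := hk2 b hb5
      rw [← eκ, app_toTab _ _ (by omega), hforced b hb5] at this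
      rw [Equiv.Perm.mul_apply, Equiv.Perm.inv_eq_iff_eq]
      exact (p2i_injective this).symm
    have h := hk3 _ (toTab_mem_fixList5 hf)
    rw [← eκ, ← toTab_mul, mul_inv_cancel_left, commTab, ← hD.toOK.toTab_sig, ← toTab_mul,
      ← toTab_mul, hc, beq_self_eq_true] at h
    exact Bool.noConfusion h

/-- The centraliser in `M24` is the list. -/
theorem OK.mem_cent {g : Equiv.Perm GolayPt} (hg : g ∈ M24)
    (hc : g * D.sig.1 = D.sig.1 * g) : toTab g ∈ D.cent := by
  obtain ⟨-, -, -, hseed, hne, -⟩ := hD.cent_facts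
  have hs0 : D.seed₀ < 24 := by
    cases hs : D.seeds with
    | nil => exact absurd hs hne
    | cons a L => rw [seed₀, hs]; exact hseed a (by rw [hs]; exact List.mem_cons_self)
  have hc' := hD.cover
  simp only [coverOK, Bool.and_eq_true, List.all_eq_true, Bool.or_eq_true, List.any_eq_true,
    beq_iff_eq, bne_iff_ne, ne_eq, List.mem_range] at hc'
  rcases hc'.1.1 (p2i (g (i2p D.seed₀))) (p2i_lt _) with ⟨h1, h2⟩ | ⟨x, hx, e⟩
  · exfalso
    rw [← hD.toOK.toTab_sig, app_toTab _ _ (p2i_lt _), i2p_p2i] at h1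
    rw [← hD.toOK.toTab_sig, app_toTab _ _ hs0] at h2
    apply h2
    have h3 : g (D.sig.1 (i2p D.seed₀)) = g (i2p D.seed₀) := by
      rw [← Equiv.Perm.mul_apply, hc, Equiv.Perm.mul_apply]
      exact p2i_injective h1
    rw [g.injective h3, p2i_i2p _ hs0]
  obtain ⟨κ, hκ, eκ, hκc⟩ := hD.part_rep (List.mem_map_of_mem (List.mem_append_left D.st hx))
  have hst := hD.mem_st (M24.mul_mem (M24.inv_mem hκ) hg)
    ((Commute.inv_left hκc).mul_left hc) (by
      rw [Equiv.Perm.mul_apply, Equiv.Perm.inv_eq_iff_eq]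
      apply p2i_injective
      rw [← e, ← eκ, app_toTab _ _ hs0])
  simp only [Cen.cent, List.mem_flatMap]
  exact ⟨x.1, List.mem_map_of_mem hx, List.mem_map.2 ⟨_, hst, by
    rw [← eκ, ← toTab_mul, mul_inv_cancel_left]⟩⟩

/-- The monomial elements of the centraliser. -/
theorem OK.monomial_cen {x : golayCode × M24} (h : monomial x ∈ D.toFix.cen) :
    toTab x.2.1 ∈ D.cent ∧ toMask (support₂ x.1.1) ∈ D.fixC := by
  obtain ⟨c, π⟩ := x
  have hs : D.toFix.el = monomial (0, D.sig) := by
    show permHom _ = signs 0 _ * permHom _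
    rw [signs_zero, one_mul]
  rw [Fix.mem_cen, hs] at h
  have e1 : MRep (monomial (c, π) * monomial (0, D.sig))
      (toMask (support₂ c.1) ^^^ maskImage (toTab π.1) 0) (compTab (toTab π.1) (toTab D.sig.1)) :=
    MRep.mul ⟨_, rfl, rfl, rfl⟩ ⟨_, rfl, by
      show toMask (support₂ (0 : GolayPt → ZMod 2)) = 0
      rw [support₂_zero, ← ofMask_zero, toMask_ofMask (by norm_num)], rfl⟩
  have e2 : MRep (monomial (0, D.sig) * monomial (c, π))
      (0 ^^^ maskImage (toTab D.sig.1) (toMask (support₂ c.1))) (compTab (toTab D.sig.1) (toTab π.1)) :=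
    MRep.mul ⟨_, rfl, by
      show toMask (support₂ (0 : GolayPt → ZMod 2)) = 0
      rw [support₂_zero, ← ofMask_zero, toMask_ofMask (by norm_num)], rfl⟩ ⟨_, rfl, rfl, rfl⟩
  rw [h] at e1
  obtain ⟨⟨d, τ⟩, hx, hd, hτ⟩ := e1
  obtain ⟨⟨d', τ'⟩, hx', hd', hτ'⟩ := e2
  obtain ⟨rfl, rfl⟩ := Prod.mk.inj (monomial_injective (hx.trans hx'.symm))
  have ht := hτ.symm.trans hτ'
  rw [← toTab_mul, ← toTab_mul] at ht
  refine ⟨hD.mem_cent π.2 (toTab_injective ht), ?_⟩
  have hm := hd.symm.trans hd'
  have h0 : maskImage (toTab π.1) 0 = 0 := by simp [maskImage]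
  rw [h0, Nat.xor_zero, Nat.zero_xor, hD.toOK.toTab_sig] at hm
  have hf := hD.fixc
  simp only [fixCOK, Bool.and_eq_true] at hf
  have hmem : inCode (toMask (support₂ c.1)) = true := mem_supports_iff.1
    (mem_supports_iff_wordOf.2 (by rw [wordOf_support₂]; exact c.2))
  have := of_allSpan hf.2 hmem
  simpa [← hm] using this

theorem OK.gen_mem {w : List Step} (hw : w ∈ D.gens) : wordEl w ∈ D.toFix.cen := by
  have h := hD.gensok
  simp only [gensOK, Bool.and_eq_true, List.all_eq_true] at h
  exact hD.toOK.word_mem (h.1.1.1 w hw)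

theorem OK.gen_act {n : ℕ} (hn : n < D.gens.length) {i : ℕ} (hi : i ∈ D.fr) :
    D.toFix.act (wordEl (D.gens.getD n [])) i = (D.imgs.getD n []).getD i 0 := by
  have h := hD.gensok
  simp only [gensOK, Bool.and_eq_true, List.all_eq_true, List.mem_range, decide_eq_true_eq] at h
  refine hD.toOK.word_act_all (h.1.1.1 _ ?_) (h.1.2 n hn).1 (h.1.2 n hn).2 (h.2 i hi)
  rw [List.getD_eq_getElem?_getD, List.getElem?_eq_getElem hn, Option.getD_some]
  exact List.getElem_mem hn

theorem OK.fr_lt {i : ℕ} (hi : i ∈ D.fr) : i < 2 ^ D.r := by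
  have h := hD.gensok
  simp only [gensOK, Bool.and_eq_true, List.all_eq_true, decide_eq_true_eq] at h
  exact h.2 i hi

/-- The automorphism of a member of the orbit. -/
noncomputable def orbEl (D : Cen) : ℕ → Co0
  | 0 => 1
  | j + 1 =>
    if _h : (D.orbPar.getD (j + 1) (0, 0)).1 < j + 1 then
      wordEl (D.gens.getD (D.orbPar.getD (j + 1) (0, 0)).2 []) *
        orbEl D (D.orbPar.getD (j + 1) (0, 0)).1
    else 1
  termination_by j => j
  decreasing_by exact _h

theorem OK.orbEl_spec {j : ℕ} (hj : j < D.orb.length) :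
    orbEl D j ∈ D.toFix.cen ∧ D.toFix.act (orbEl D j) 1 = D.orb.getD j 0 := by
  have h := hD.orbok
  simp only [orbOK, Bool.and_eq_true, beq_iff_eq, List.all_eq_true, List.mem_range,
    decide_eq_true_eq, Bool.or_eq_true, List.contains_eq_mem] at h
  obtain ⟨⟨⟨⟨h1, -⟩, hfr⟩, -⟩, hstep⟩ := h
  induction j using Nat.strong_induction_on with
  | _ j ih =>
    rcases Nat.eq_zero_or_pos j with rfl | hpos
    · rw [orbEl]
      refine ⟨one_mem _, ?_⟩
      rw [hD.toOK.act_one (hD.fr_lt (hfr 1 ?_)), h1]
      rw [← h1, List.getD_eq_getElem?_getD, List.getElem?_eq_getElem hj, Option.getD_some]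
      exact List.getElem_mem hj
    · obtain ⟨k, rfl⟩ : ∃ k, j = k + 1 := ⟨j - 1, by omega⟩
      obtain ⟨⟨hp, hg⟩, he⟩ := (hstep _ hj).resolve_left (Nat.succ_ne_zero k)
      rw [orbEl, dif_pos hp]
      set x := D.orbPar.getD (k + 1) (0, 0)
      obtain ⟨hm, ha⟩ := ih x.1 hp (by omega)
      have hw : D.gens.getD x.2 [] ∈ D.gens := by
        rw [List.getD_eq_getElem?_getD, List.getElem?_eq_getElem hg, Option.getD_some]
        exact List.getElem_mem hg
      refine ⟨mul_mem (hD.gen_mem hw) hm, ?_⟩
      rw [hD.toOK.act_mul hm, ha, hD.gen_act hg ?_, he]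
      have hx : x.1 < D.orb.length := by omega
      rw [List.getD_eq_getElem?_getD, List.getElem?_eq_getElem hx, Option.getD_some]
      exact hfr _ (List.getElem_mem hx)

/-- Every element of the centraliser is an orbit element times a monomial. -/
theorem OK.decomp {δ : Co0} (hδ : δ ∈ D.toFix.cen) :
    ∃ j < D.orb.length, ∃ x : golayCode × M24, δ = orbEl D j * monomial x ∧
      toTab x.2.1 ∈ D.cent ∧ toMask (support₂ x.1.1) ∈ D.fixC := by
  obtain ⟨j, hj, e⟩ := List.getElem_of_mem (hD.reach δ hδ)
  obtain ⟨hm, ha⟩ := hD.orbEl_spec hj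
  rw [List.getD_eq_getElem?_getD, List.getElem?_eq_getElem hj, Option.getD_some, e] at ha
  have h1 := (hD.toOK.act_spec hδ 1).1
  have h2 := (hD.toOK.act_spec hm 1).1
  rw [ha] at h2
  have h3 : Cg (((orbEl D j)⁻¹ * δ) • D.toFix.comb 1) (D.toFix.comb 1) := by
    rw [mul_smul]
    simpa using (h1.trans h2.symm).smul (orbEl D j)⁻¹
  have hax : Cg (D.toFix.comb 1) (axisVec none) := by
    have h := hD.orbok
    simp only [orbOK, Bool.and_eq_true] at h
    refine cg_of_cgL ?_
    rw [hD.toOK.toL_comb]
    exact h.1.2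
  obtain ⟨x, hx⟩ := frame_decomp ((hax.symm.smul _).trans (h3.trans hax))
  refine ⟨j, hj, x, by rw [← hx, mul_inv_cancel_left], hD.monomial_cen ?_⟩
  rw [← hx]
  exact mul_mem (inv_mem hm) hδ

/-- The bound on the order of the centraliser. -/
theorem OK.card_cen_le :
    Nat.card D.toFix.cen ≤ D.orb.length * (D.fixC.length * D.cent.length) := by
  classical
  let L : List (Co0) := (List.range D.orb.length).flatMap fun j =>
    (D.fixC.flatMap fun m => D.cent.map fun t => orbEl D j * mon (m, t))
  have hsub : (D.toFix.cen : Set Co0) ⊆ ↑L.toFinset := by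
    intro δ hδ
    obtain ⟨j, hj, x, rfl, h1, h2⟩ := hD.decomp hδ
    simp only [L, List.coe_toFinset, Set.mem_setOf_eq, List.mem_flatMap, List.mem_range,
      List.mem_map]
    refine ⟨j, hj, _, h2, _, h1, ?_⟩
    congr 1
    have hf := hD.fixc
    simp only [fixCOK, Bool.and_eq_true, List.all_eq_true] at hf
    exact MRep.ext (mrep_mon' (hf.1 _ h2) (hD.cent_tab h1)) ⟨x, rfl, rfl, rfl⟩
  calc Nat.card D.toFix.cen ≤ Set.ncard (↑L.toFinset : Set Co0) :=
        (Nat.card_coe_set_eq (D.toFix.cen : Set Co0)).trans_le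
          (Set.ncard_le_ncard hsub (Finset.finite_toSet _))
    _ ≤ L.length := by rw [Set.ncard_coe_finset]; exact List.toFinset_card_le L
    _ = _ := by
        simp only [L, List.length_flatMap, List.length_map, List.map_const', List.sum_replicate,
          List.length_range, smul_eq_mul]

/-- A product-closed property of the generators holds on the centraliser. -/
theorem OK.induction {S : Co0 → Prop} (h1 : S 1)
    (hmul : ∀ a ∈ D.toFix.cen, ∀ b ∈ D.toFix.cen, S a → S b → S (a * b))
    (hgen : ∀ w ∈ D.gens, S (wordEl w)) {δ : Co0} (hδ : δ ∈ D.toFix.cen) : S δ := by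
  have horb : ∀ j < D.orb.length, S (orbEl D j) := by
    intro j hj
    induction j using Nat.strong_induction_on with
    | _ j ih =>
      rcases Nat.eq_zero_or_pos j with rfl | hpos
      · rw [orbEl]; exact h1
      · obtain ⟨k, rfl⟩ : ∃ k, j = k + 1 := ⟨j - 1, by omega⟩
        have h := hD.orbok
        simp only [orbOK, Bool.and_eq_true, beq_iff_eq, List.all_eq_true, List.mem_range,
          decide_eq_true_eq, Bool.or_eq_true] at h
        obtain ⟨⟨hp, hg⟩, -⟩ := (h.2 _ hj).resolve_left (Nat.succ_ne_zero k)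
        rw [orbEl, dif_pos hp]
        have hw : D.gens.getD (D.orbPar.getD (k + 1) (0, 0)).2 [] ∈ D.gens := by
          rw [List.getD_eq_getElem?_getD, List.getElem?_eq_getElem hg, Option.getD_some]
          exact List.getElem_mem hg
        exact hmul _ (hD.gen_mem hw) _ (hD.orbEl_spec (by omega)).1 (hgen _ hw) (ih _ hp (by omega))
  have hone : ∀ C t u, wordEl [some (C, t, u)] = mon (C, t) := fun C t u => by
    simp [wordEl, stepEl]
  have hst := hD.stab
  simp only [stabIn, Bool.and_eq_true, List.all_eq_true, List.any_eq_true] at hst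
  have hsingle : ∀ C t, (∃ w ∈ D.gens, (match w with
      | [some (C', t', _)] => C' == C && t' == t | _ => false) = true) →
      S (mon (C, t)) ∧ mon (C, t) ∈ D.toFix.cen := by
    rintro C t ⟨w, hw, h⟩
    revert h
    split
    · rename_i C' t' u
      intro h
      simp only [Bool.and_eq_true, beq_iff_eq] at h
      obtain ⟨rfl, rfl⟩ := h
      rw [← hone C' t' u]
      exact ⟨hgen _ hw, hD.gen_mem hw⟩
    · intro h; exact Bool.noConfusion h
  obtain ⟨j, hj, x, rfl, hx1, hx2⟩ := hD.decomp hδ
  have hm := (hD.orbEl_spec hj).1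
  have h0 : inCode 0 = true := by decide +kernel
  obtain ⟨hgm, -, -, -, -, hparts⟩ := hD.cent_facts
  have hword : ∀ w : List ℕ, (∀ n ∈ w, n < D.centGen.length) →
      S (mon (0, D.genWord w)) ∧ mon (0, D.genWord w) ∈ D.toFix.cen := by
    intro w hw
    induction w with
    | nil =>
      rw [genWord, MRep.ext (mrep_mon (x := (0, idTab)) h0 (by decide +kernel)) MRep.one]
      exact ⟨h1, one_mem _⟩
    | cons n w ih =>
      obtain ⟨s1, m1⟩ := ih fun m hm => hw m (List.mem_cons_of_mem _ hm)
      have hn := hw n List.mem_cons_self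
      have hgmem : D.centGen.getD n [] ∈ D.centGen := by
        rw [List.getD_eq_getElem?_getD, List.getElem?_eq_getElem hn, Option.getD_some]
        exact List.getElem_mem hn
      obtain ⟨s2, m2⟩ := hsingle 0 _ (hst.1 _ hgmem)
      obtain ⟨k, hk, ek, -⟩ := hD.word_rep fun m hm => hw m (List.mem_cons_of_mem _ hm)
      obtain ⟨k', hk', ek', -⟩ := hD.word_rep hw
      have e : mon (0, D.genWord (n :: w)) =
          mon (0, D.centGen.getD n []) * mon (0, D.genWord w) := by
        have := (mrep_mon (x := (0, D.centGen.getD n [])) h0 (hgm _ hgmem).1).mul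
          (mrep_mon' (x := (0, D.genWord w)) h0 ⟨k, hk, ek⟩)
        refine MRep.ext (mrep_mon' (x := (0, D.genWord (n :: w))) h0 ⟨k', hk', ek'⟩) ?_
        convert this using 1
        · simp [maskImage]
        · rfl
      rw [e]
      exact ⟨hmul _ m2 _ m1 s2 s1, mul_mem m2 m1⟩
  have hx1' := hx1
  simp only [Cen.cent, List.mem_flatMap, List.mem_map] at hx1'
  obtain ⟨_, ⟨u, hu, rfl⟩, _, ⟨v, hv, rfl⟩, huv⟩ := hx1'
  obtain ⟨hu1, hu2⟩ := hparts u (List.mem_append_left _ hu)
  obtain ⟨hv1, hv2⟩ := hparts v (List.mem_append_right _ hv)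
  obtain ⟨su, mu⟩ := hword _ hu1
  obtain ⟨sv, mv⟩ := hword _ hv1
  rw [hu2] at su mu
  rw [hv2] at sv mv
  obtain ⟨ku, hku, eku, -⟩ := hD.part_rep (List.mem_map_of_mem (List.mem_append_left D.st hu))
  obtain ⟨kv, hkv, ekv, -⟩ := hD.part_rep (List.mem_map_of_mem (List.mem_append_right D.tr hv))
  have euv : mon (0, toTab x.2.1) = mon (0, u.1) * mon (0, v.1) := by
    refine MRep.ext (mrep_mon' (x := (0, toTab x.2.1)) h0 ⟨_, x.2.2, rfl⟩) ?_
    have := (mrep_mon' (x := (0, u.1)) h0 ⟨ku, hku, eku⟩).mul
      (mrep_mon' (x := (0, v.1)) h0 ⟨kv, hkv, ekv⟩)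
    convert this using 1
    · simp [maskImage]
    · exact huv.symm
  have s1 : S (mon (0, toTab x.2.1)) := euv ▸ hmul _ mu _ mv su sv
  have m1 : mon (0, toTab x.2.1) ∈ D.toFix.cen := euv ▸ mul_mem mu mv
  obtain ⟨s2, m2⟩ := hsingle _ idTab (hst.2 _ hx2)
  have hf := hD.fixc
  simp only [fixCOK, Bool.and_eq_true, List.all_eq_true] at hf
  have hid : tabInM24 idTab = true := by decide +kernel
  have h00 : inCode 0 = true := by decide +kernel
  have e : monomial x = mon (toMask (support₂ x.1.1), idTab) * mon (0, toTab x.2.1) := by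
    refine MRep.ext ⟨x, rfl, rfl, rfl⟩ ?_
    have := (mrep_mon (x := (toMask (support₂ x.1.1), idTab)) (hf.1 _ hx2) hid).mul
      (mrep_mon' (x := (0, toTab x.2.1)) h00 ⟨_, x.2.2, rfl⟩)
    convert this using 1
    · simp [maskImage]
    · rw [← toTab_one, ← toTab_mul, one_mul]
  rw [e]
  exact hmul _ hm _ (mul_mem m2 m1) (horb j hj) (hmul _ m2 _ m1 s2 s1)

end Cen

end CfsgLib.MonsterCent
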