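import Cfsg.Agent.Leech.Monster.Split
import Cfsg.Agent.Leech.Monster.BabyLift
import Cfsg.Agent.MonsterCent.Generic

/-!
The centraliser of a conjugate of `z` in `Q` whose class is the class of the axis, and elements of
odd prime order in it.
-/

set_option autoImplicit false

namespace CfsgLib.MonsterCent

open Cfsg CfsgLib.Leech

variable {G : Type*} [Group G] {z : G}
variable {Q : Subgroup (Subgroup.centralizer ({z} : Set G))} [Q.Normal]
variable {e : (Subgroup.centralizer ({z} : Set G)) ⧸ Q ≃* Spor.Co1}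
variable {ψ : leechLattice → Q ⧸ Subgroup.center Q}

/-- The identification twisted by an automorphism of the lattice. -/
noncomputable def twistE (e : (Subgroup.centralizer ({z} : Set G)) ⧸ Q ≃* Spor.Co1) (t : Co0) :
    (Subgroup.centralizer ({z} : Set G)) ⧸ Q ≃* Spor.Co1 :=
  e.trans (MulAut.conj (QuotientGroup.mk t : Spor.Co1))

theorem match_twist {t : Co0} {h : Subgroup.centralizer ({z} : Set G)} {g : Co0} :
    Match (twistE e t) h g ↔ Match e h (t⁻¹ * g * t) := by
  simp only [Match, twistE, MulEquiv.trans_apply, MulAut.conj_apply, QuotientGroup.mk_mul,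
    QuotientGroup.mk_inv]
  constructor <;> intro hh
  · rw [hh]; group
  · rw [← hh]; group

variable (hc : Ctx z Q e ψ)
include hc

theorem ctx_twist (t : Co0) : Ctx z Q (twistE e t) (fun v => ψ (t⁻¹ • v)) := by
  refine ⟨hc.setting, fun u v => ?_, fun q => ?_, fun v => ?_, fun h g hm v q hv => ?_⟩
  · show ψ (t⁻¹ • (u + v)) = _
    rw [co0_map_add, hc.iso.1]
  · obtain ⟨v, rfl⟩ := hc.iso.2.1 q
    exact ⟨t • v, by show ψ (t⁻¹ • t • v) = _; rw [inv_smul_smul]⟩
  · show ψ (t⁻¹ • v) = 1 ↔ _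
    rw [hc.iso.2.2.1]
    constructor
    · rintro ⟨w, hw⟩
      exact ⟨t • w, by rw [← co0_map_add, ← hw, smul_inv_smul]⟩
    · rintro ⟨w, rfl⟩
      exact ⟨t⁻¹ • w, co0_map_add _ _ _⟩
  · have := hc.conj_class (match_twist.1 hm) hv
    show ψ (t⁻¹ • g • v) = _
    rw [mul_smul, mul_smul, smul_inv_smul] at this
    exact this

/-- The automorphisms matching elements of the centraliser of the class of the axis. -/
theorem Ctx.match_frameStab {sq : Q} (hax : ψ (axisVec none) = QuotientGroup.mk sq)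
    {k : Subgroup.centralizer ({z} : Set G)} (hk : k ∈ stabQ sq) {γ : Co0} (hγ : Match e k γ) :
    γ ∈ frameStab := by
  have h1 := hc.conj_class hγ hax
  rw [show (⟨k * sq * k⁻¹, (inferInstance : Q.Normal).conj_mem _ sq.2 k⟩ : Q) = sq from
    Subtype.ext (by show k * _ * k⁻¹ = _; rw [mem_stabQ.1 hk, mul_inv_cancel_right])] at h1
  exact (psi_eq_iff hc.iso _ _).1 (h1.trans hax.symm)

theorem axis_not_cg_zero : ¬ Cg (axisVec none) (0 : leechLattice) := fun h => by
  have := dotPar_cg h oddElt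
  rw [dotPar_axis, dotPar_zero_left] at this
  revert this; decide +kernel

theorem Ctx.exists_stab {sq : Q} (hax : ψ (axisVec none) = QuotientGroup.mk sq) {γ : Co0}
    (hγ : γ ∈ frameStab) : ∃ k ∈ stabQ sq, Match e k γ := by
  obtain ⟨k, hk, hkt⟩ := hc.exists_conj hax hax (mem_frameStab.1 hγ) (axis_not_cg_zero hc)
  exact ⟨k, mem_stabQ.2 (mul_inv_eq_iff_eq_mul.1 hkt), hk⟩

omit hc in
theorem negOne_sq : negOne * negOne = 1 :=
  co0_ext fun i => by rw [mul_smul, negOne_smul, negOne_smul, neg_neg, one_smul]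

omit hc in
theorem negOne_pow_odd {p : ℕ} (hp : Odd p) : negOne ^ p = negOne := by
  obtain ⟨k, rfl⟩ := hp
  rw [pow_succ, pow_mul, pow_two, negOne_sq, one_pow, one_mul]

omit hc in
theorem negOne_ne_one : negOne ≠ 1 := fun h => by
  have h1 := negOne_smul (axisVec none)
  rw [h, one_smul] at h1
  have := congrFun (congrArg Subtype.val h1) none
  simp [axisVec, single] at this

omit hc in
theorem Match.pow {h : Subgroup.centralizer ({z} : Set G)} {g : Co0} (a : Match e h g) (n : ℕ) :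
    Match e (h ^ n) (g ^ n) := by
  simp only [Match, QuotientGroup.mk_pow, map_pow] at a ⊢
  rw [a]

omit hc in
theorem match_one_iff {g : Co0} : Match e 1 g ↔ g = 1 ∨ g = negOne := by
  rw [Match, QuotientGroup.mk_one, map_one, QuotientGroup.eq_one_iff]
  refine ⟨center_co0_cases, ?_⟩
  rintro (rfl | rfl)
  exacts [one_mem _, negOne_central]

omit hc in
/-- An element of odd order has a lift of the same order. -/
theorem exists_match_pow {p : ℕ} (hp : Odd p) {k : Subgroup.centralizer ({z} : Set G)}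
    (hk : k ^ p = 1) : ∃ γ, Match e k γ ∧ γ ^ p = 1 := by
  obtain ⟨γ, hγ⟩ := exists_match_right (e := e) k
  have h1 := Match.pow hγ p
  rw [hk] at h1
  rcases match_one_iff.1 h1 with r | r
  · exact ⟨γ, hγ, r⟩
  · refine ⟨negOne * γ, ?_, ?_⟩
    · have h2 := ((match_one_iff (e := e)).2 (Or.inr rfl)).mul hγ
      rwa [one_mul] at h2
    · rw [Commute.mul_pow (Subgroup.mem_center_iff.1 negOne_central γ).symm, r,
        negOne_pow_odd hp, negOne_sq]

omit hc in
/-- A monomial element of odd prime order is conjugate to its permutation. -/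
theorem frame_conj_perm {p : ℕ} (hp : p.Prime) (hp2 : p ≠ 2) {γ : Co0} (hγ : γ ∈ frameStab)
    (h : γ ^ p = 1) : ∃ n ∈ frameStab, n * γ * n⁻¹ = permHom (framePart ⟨γ, hγ⟩) := by
  have hker : IsPGroup 2 framePart.ker := by
    intro x
    refine ⟨1, Subtype.ext (Subtype.ext ?_)⟩
    obtain ⟨c, hcd, hce⟩ := framePart_eq_one (g := x.1) x.2
    show (x.1.1 : Co0) ^ 2 ^ 1 = 1
    rw [hce, pow_one, pow_two, signs_mul, ← signs_zero (zero_mem _)]
    congr 1
    funext i
    exact CharTwo.add_self_eq_zero _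
  set π := framePart ⟨γ, hγ⟩
  have hπ : π ^ p = 1 := by
    rw [← map_pow, show (⟨γ, hγ⟩ : frameStab) ^ p = 1 from Subtype.ext h, map_one]
  obtain ⟨n, -, -, hn⟩ := exists_conj_of_coset framePart.ker hker hp hp2
    (x := ⟨γ, hγ⟩) (y := ⟨permHom π, permHom_mem_frameStab π⟩) (Subtype.ext h)
    (Subtype.ext (show permHom π ^ p = 1 by rw [← map_pow, hπ, map_one])) ⊤ trivial trivial (by
      rw [MonoidHom.mem_ker, map_mul, map_inv, framePart_permHom]
      exact inv_mul_cancel _)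
  exact ⟨n.1, n.2, congrArg Subtype.val hn⟩

/-- A power of the element is moved into the coset of `el`. -/
def Normable (e : (Subgroup.centralizer ({z} : Set G)) ⧸ Q ≃* Spor.Co1) (el : Co0) (sq : Q)
    (k : Subgroup.centralizer ({z} : Set G)) : Prop :=
  ∃ l ∈ stabQ sq, ∃ j : ℕ, Match e (l * k ^ j * l⁻¹) el

theorem Ctx.normable {sq : Q} (hax : ψ (axisVec none) = QuotientGroup.mk sq) {p : ℕ} (hp : p.Prime)
    (hp2 : p ≠ 2) (σ : M24) {k : Subgroup.centralizer ({z} : Set G)} (hk : k ∈ stabQ sq)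
    (hkp : k ^ p = 1) {γ : Co0} (hγ : Match e k γ) (hγp : γ ^ p = 1)
    (hconj : ∀ hmem : γ ∈ frameStab,
      ∃ (r : M24) (j : ℕ), r * framePart ⟨γ, hmem⟩ ^ j * r⁻¹ = σ) :
    Normable e (permHom σ) sq k := by
  have hmem := Ctx.match_frameStab hc hax hk hγ
  obtain ⟨r, j, hr⟩ := hconj hmem
  obtain ⟨n, hn, hnγ⟩ := frame_conj_perm hp hp2 hmem hγp
  obtain ⟨l, hl, hlm⟩ := Ctx.exists_stab hc hax (γ := permHom r * n)
    (mul_mem (permHom_mem_frameStab r) hn)
  refine ⟨l, hl, j, ?_⟩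
  have := (hlm.mul (Match.pow hγ j)).mul hlm.inv
  convert this using 1
  rw [← hr, map_mul, map_mul, map_pow, map_inv, ← hnγ, conj_pow]
  group

variable [Finite G]

theorem Ctx.q_two_group : IsPGroup 2 Q :=
  IsPGroup.of_card hc.setting.2.2.2.1

/-- Two elements matching the same automorphism are conjugate. -/
theorem Ctx.conj_of_match {p : ℕ} (hp : p.Prime) (hp2 : p ≠ 2)
    (S : Subgroup (Subgroup.centralizer ({z} : Set G)))
    {a b : Subgroup.centralizer ({z} : Set G)} (ha : a ∈ S) (hb : b ∈ S) (hap : a ^ p = 1)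
    (hbp : b ^ p = 1) {γ : Co0} (ma : Match e a γ) (mb : Match e b γ) :
    ∃ q ∈ Q, q ∈ S ∧ q * a * q⁻¹ = b :=
  exists_conj_of_coset Q (Ctx.q_two_group hc) hp hp2 hap hbp S ha hb (ma.unique mb)

/-- Two normable elements generate conjugate subgroups. -/
theorem Ctx.conj_of_normable {sq : Q} {p : ℕ} (hp : p.Prime) (hp2 : p ≠ 2) {el : Co0}
    (hel : el ≠ 1) (help : el ^ p = 1) {a b : Subgroup.centralizer ({z} : Set G)}
    (ha : a ∈ stabQ sq) (hb : b ∈ stabQ sq) (hap : a ^ p = 1) (hbp : b ^ p = 1)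
    (na : Normable e el sq a) (nb : Normable e el sq b) :
    ∃ w ∈ stabQ sq, ∃ i : ℕ, w * a ^ i * w⁻¹ = b := by
  obtain ⟨l, hl, i, mi⟩ := na
  obtain ⟨l', hl', j, mj⟩ := nb
  obtain ⟨q, -, hq, hqab⟩ := Ctx.conj_of_match hc hp hp2 (stabQ sq)
    (mul_mem (mul_mem hl (pow_mem ha i)) (inv_mem hl))
    (mul_mem (mul_mem hl' (pow_mem hb j)) (inv_mem hl'))
    (by rw [conj_pow, ← pow_mul, mul_comm, pow_mul, hap, one_pow, mul_one, mul_inv_cancel])
    (by rw [conj_pow, ← pow_mul, mul_comm, pow_mul, hbp, one_pow, mul_one, mul_inv_cancel]) mi mj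
  have hj : ¬ p ∣ j := by
    rintro ⟨c, rfl⟩
    rw [pow_mul, hbp, one_pow, mul_one, mul_inv_cancel] at mj
    rcases match_one_iff.1 mj with r | r
    · exact hel r
    · rw [r, negOne_pow_odd (hp.odd_of_ne_two hp2)] at help
      exact negOne_ne_one help
  obtain ⟨m, hm⟩ := Nat.exists_mul_mod_eq_one_of_coprime
    ((Nat.coprime_comm.1 (hp.coprime_iff_not_dvd.2 hj))) hp.one_lt
  have hbjm : (b ^ j) ^ m = b := by
    rw [← pow_mul, ← Nat.div_add_mod (j * m) p, pow_add, pow_mul, hbp, one_pow, one_mul, hm.2,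
      pow_one]
  refine ⟨l'⁻¹ * q * l, mul_mem (mul_mem (inv_mem hl') hq) hl, i * m, ?_⟩
  have h2 : (l'⁻¹ * q * l) * a ^ i * (l'⁻¹ * q * l)⁻¹ = b ^ j := by
    calc (l'⁻¹ * q * l) * a ^ i * (l'⁻¹ * q * l)⁻¹
        = l'⁻¹ * (q * (l * a ^ i * l⁻¹) * q⁻¹) * l' := by group
      _ = l'⁻¹ * (l' * b ^ j * l'⁻¹) * l' := by rw [hqab]
      _ = b ^ j := by group
  rw [pow_mul, ← conj_pow, h2, hbjm]

theorem Ctx.card_stab_factorization {sq : Q} (hax : ψ (axisVec none) = QuotientGroup.mk sq) {p : ℕ}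
    (hp : p.Prime) (hp2 : p ≠ 2) :
    (Nat.card (stabQ sq)).factorization p = (Nat.card frameStab).factorization p := by
  let f : stabQ sq →* Spor.Co1 :=
    (e.toMonoidHom.comp (QuotientGroup.mk' Q)).comp (stabQ sq).subtype
  have hr : f.range = frameStab.map (QuotientGroup.mk' (Subgroup.center Co0)) := by
    ext x
    constructor
    · rintro ⟨k, rfl⟩
      obtain ⟨γ, hγ⟩ := exists_match_right (e := e) k.1
      exact ⟨γ, Ctx.match_frameStab hc hax k.2 hγ, hγ⟩
    · rintro ⟨γ, hγ, rfl⟩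
      obtain ⟨k, hk, hkm⟩ := Ctx.exists_stab hc hax hγ
      exact ⟨⟨k, hk⟩, hkm.symm⟩
  haveI : Fact (Nat.Prime 2) := ⟨Nat.prime_two⟩
  have hk2 : IsPGroup 2 f.ker := fun k => by
    obtain ⟨j, hj⟩ := Ctx.q_two_group hc ⟨_, (QuotientGroup.eq_one_iff _).1
      (e.injective ((k.2 : e (QuotientGroup.mk (k.1 : stabQ sq).1) = 1).trans (map_one e).symm))⟩
    exact ⟨j, Subtype.ext (Subtype.ext (congrArg Subtype.val hj :))⟩
  obtain ⟨a, ha⟩ := hk2.exists_card_eq
  have h1 := Subgroup.card_mul_index f.ker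
  rw [Subgroup.index_ker, ha, hr] at h1
  let g : frameStab →* Spor.Co1 := (QuotientGroup.mk' (Subgroup.center Co0)).comp frameStab.subtype
  have hgk : IsPGroup 2 g.ker := fun k => by
    refine ⟨1, Subtype.ext (Subtype.ext ?_)⟩
    show (k.1.1 : Co0) ^ 2 ^ 1 = 1
    rw [pow_one, pow_two]
    rcases center_co0_cases ((QuotientGroup.eq_one_iff _).1 k.2) with r | r <;>
      simp only [Subgroup.coe_subtype] at r <;> rw [r]
    · exact one_mul 1
    · exact negOne_sq
  obtain ⟨c, hc'⟩ := hgk.exists_card_eq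
  have h2 := Subgroup.card_mul_index g.ker
  rw [Subgroup.index_ker, hc', MonoidHom.range_comp, Subgroup.range_subtype] at h2
  rw [← h1, ← h2, Nat.factorization_mul (by positivity) Nat.card_pos.ne',
    Nat.factorization_mul (by positivity) Nat.card_pos.ne']
  simp [Nat.prime_two.factorization_pow, Ne.symm hp2]

end CfsgLib.MonsterCent
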