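import Cfsg.Agent.MonsterCent.Eval
import Cfsg.Agent.Mathieu.Classes

/-!
An element of order three of `M24` fixing six points is central in a subgroup of order 27.
-/

set_option autoImplicit false
set_option maxRecDepth 100000

namespace CfsgLib.MonsterCent

open Cfsg CfsgLib.Mathieu CfsgLib.Golay

/-- A subgroup of order 27 centralising the representative with six fixed points. -/
def sylThree : List (List ℕ) := [(unNats 24 4739680269640833399358660013321390928388199957671934296593007104),(unNats 24 3500330866136596485306614068185530658321952992519151448500994560),(unNats 24 4326694035301460926525011206081430239760959947949515199109136896),(unNats 24 4531579440513684753595225610208316645352017636206659461948900353),(unNats 24 1854423800385062982156983682635527880474389602060659832557405185),(unNats 24 3710427032042802022390747157245327678075071915523240171126391809),(unNats 24 3300264728769207047540271746767931778049827169110776753321934850),(unNats 24 1652346631984684061660116127941264883702121610778550840575918082),(unNats 24 4122204108971573798954444328283202717580623672669652836696719362),(unNats 24 3294642799500437115146176214425874561587430508630164143607646211),(unNats 24 4531979605710340488614418033958649291069911097312074773651261443),(unNats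 24 4734056771066768047637608134911199280646336047960198766730676227),(unNats 24 1859635364070947900901436198577084080262064465314678112017714692),(unNats 24 3504738960788361612799366404451697511362712420015517268569755140),(unNats 24 1652749151082564428253548779341953888291424412027915953687498244),(unNats 24 4325891350884205455428981385305986722794273090284819918384793095),(unNats 24 4122616043737034862447638945127416298875322123817455231188338183),(unNats 24 3711640866537087457808685607696796174837218553197572104861517319),(unNats 24 4326291516140770780495217415409543156567492650496306270515764235),(unNats 24 1860047298881306260506394870468246710413758448141356308292705291),(unNats 24 3299050894197187399449633398814531910142024734004452998513433611),(unNats 24 3505952795348338795349387623256493321490273698572125879910802958),(unNats 24 4532382124865190279817344686570397005964620970441434971568350734),(unNats 24 4116992545234822777157422619080552357985652386387066578751202830),(unNats 24 4739268334791546482208657306778709541524400809807288122134238739),(unNats 24 3706018937313284699840998722215151966295152056510053537856099859),(unNats 24 1651946466704074020870177614338458689763583985930448302880855571)]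

/-- The checks on the list. -/
def sylThreeOK : Bool :=
  sylThree.all tabInM24 && decide sylThree.Nodup && sylThree.length == 27 &&
    sylThree.contains idTab && sylThree.contains threeSix &&
    sylThree.all (fun a => compTab a threeSix == compTab threeSix a) &&
    sylThree.all (fun a => sylThree.all fun b => sylThree.contains (compTab a b))

theorem sylThree_check : sylThreeOK = true := by decide +kernel

theorem exists_central_27 {π : M24} (h3 : orderOf (π.1) = 3) (h6 : (fixedPts π.1).card = 6) :
    ∃ S : Subgroup M24, Nat.card S = 27 ∧ π ∈ S ∧ ∀ x ∈ S, x * π = π * x := by
  classical
  rcases exists_conj_three π.2 h3 with ⟨h0, -⟩ | ⟨-, k, hk, hkt⟩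
  · omega
  have h := sylThree_check
  simp only [sylThreeOK, Bool.and_eq_true, List.all_eq_true, decide_eq_true_eq, beq_iff_eq,
    List.contains_eq_mem] at h
  obtain ⟨⟨⟨⟨⟨⟨hin, hnd⟩, hlen⟩, hone⟩, hsix⟩, hcomm⟩, hmul⟩ := h
  let kk : M24 := ⟨k, hk⟩
  let c : M24 →* M24 := (MulAut.conj kk).toMonoidHom
  let M : Submonoid M24 :=
    { carrier := {x | toTab (c x).1 ∈ sylThree}
      mul_mem' := fun {a b} ha hb => by
        show toTab (c (a * b)).1 ∈ sylThree
        rw [map_mul, Subgroup.coe_mul, toTab_mul]
        exact hmul _ ha _ hb
      one_mem' := by
        show toTab (c 1).1 ∈ sylThree
        rw [map_one, OneMemClass.coe_one, toTab_one]; exact hone }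
  haveI : Finite M24 := inferInstance
  let S : Subgroup M24 :=
    { M with
      inv_mem' := fun {a} ha => by
        have hp : a⁻¹ = a ^ (orderOf a - 1) :=
          inv_eq_of_mul_eq_one_right (by
            rw [← pow_succ', Nat.sub_add_cancel (orderOf_pos a), pow_orderOf_eq_one])
        rw [hp]
        exact M.pow_mem ha _ }
  have hcπ : toTab (c π).1 = threeSix := hkt
  refine ⟨S, ?_, ?_, fun x hx => ?_⟩
  · let f : S → {t // t ∈ sylThree} := fun x => ⟨toTab (c x.1).1, x.2⟩
    have hf : Function.Bijective f := by
      refine ⟨fun a b e => Subtype.ext ((MulAut.conj kk).injective (Subtype.ext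
        (toTab_injective (congrArg Subtype.val e)))), fun t => ?_⟩
      obtain ⟨g, hg, e⟩ := rep_of_tabInM24 (hin _ t.2)
      obtain ⟨x, hx⟩ := (MulAut.conj kk).surjective ⟨g, hg⟩
      refine ⟨⟨x, ?_⟩, Subtype.ext ?_⟩
      · show toTab (c x).1 ∈ sylThree
        rw [show c x = ⟨g, hg⟩ from hx, e]; exact t.2
      · show toTab (c x).1 = t.1
        rw [show c x = ⟨g, hg⟩ from hx, e]
    rw [Nat.card_congr ((Equiv.ofBijective f hf).trans (hnd.getEquiv sylThree).symm), Nat.card_fin,
      hlen]
  · show toTab (c π).1 ∈ sylThree
    rw [hcπ]; exact hsix
  · refine (MulAut.conj kk).injective (Subtype.ext (toTab_injective ?_))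
    show toTab (c (x * π)).1 = toTab (c (π * x)).1
    rw [map_mul, map_mul, Subgroup.coe_mul, Subgroup.coe_mul, toTab_mul, toTab_mul, hcπ]
    exact hcomm _ hx

end CfsgLib.MonsterCent
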