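import Cfsg.Agent.MonsterCent.Stab
import Cfsg.Agent.MonsterCent.SylowThree
import Cfsg.Agent.MonsterCent.ModelThree
import Cfsg.Agent.MonsterCent13.Quot

/-!
A subgroup of order three of the joint centraliser of `z` and a second conjugate in `Q` which is
central in no Sylow 3-subgroup lies over a conjugate of the fixed-point-free permutation.
-/

set_option autoImplicit false

namespace CfsgLib.MonsterCent.Three

open Cfsg CfsgLib.Leech CfsgLib.Mathieu CfsgLib.MonsterCent13

theorem el_pow_three : fixData.el ^ 3 = 1 := by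
  have h := Blk.OK.el_pow blk_ok
  rwa [show blkData.p = 3 from size_eq.2.1] at h

theorem sig_fixed : (fixedPts fixData.sig.1).card = 0 ∧ orderOf fixData.sig.1 = 3 := by
  refine ⟨?_, ?_⟩
  · rw [card_fixedPts, fix_ok.toTab_sig]
    decide +kernel
  · rw [Subgroup.orderOf_coe]
    haveI : Fact (Nat.Prime 3) := ⟨Nat.prime_three⟩
    refine orderOf_eq_prime ?_ fix_ok.sig_ne_one
    have := fix_ok.sig_pow
    rwa [show fixData.p = 3 from size_eq.2.1] at this

/-- The kernel of the action on the fixed classes, over the element itself. -/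
theorem el_faithful : ∀ k ∈ Subgroup.centralizer ({fixData.el} : Set Co0),
    (∀ v : leechLattice, Cg (fixData.el • v) v → Cg (k • v) v) →
      k ∈ Subgroup.center Co0 ⊔ Subgroup.zpowers fixData.el := by
  have e : (blkData.toFix.el : Co0) = fixData.el := rfl
  have h : ∀ k ∈ Subgroup.centralizer ({blkData.toFix.el} : Set Co0),
      (∀ v : leechLattice, Cg (blkData.toFix.el • v) v → Cg (k • v) v) →
        k ∈ Subgroup.center Co0 ⊔ Subgroup.zpowers blkData.toFix.el :=
    Blk.OK.faithful blk_ok range_ker.2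
  rw [e] at h
  exact h

/-- The fixed classes of the element itself. -/
theorem el_card_fixed {G : Type*} [Group G] {z : G}
    {Q : Subgroup (Subgroup.centralizer ({z} : Set G))} [Q.Normal]
    {e : (Subgroup.centralizer ({z} : Set G)) ⧸ Q ≃* Spor.Co1}
    {ψ : leechLattice → Q ⧸ Subgroup.center Q} (hψ : IsLeechModTwoIso Q e ψ) :
    Nat.card {c : Q ⧸ Subgroup.center Q // ∃ v, ψ v = c ∧ Cg (fixData.el • v) v} = 2 ^ 8 := by
  have he : (blkData.toFix.el : Co0) = fixData.el := rfl
  have h := Blk.OK.card_fixed_classes blk_ok hψ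
  rw [he, show blkData.r = 8 from size_eq.2.2] at h
  exact h

/-- The element with what is read off from it. -/
theorem exists_element : ∃ γ : Co0, fixData.el = γ ∧ γ ^ 3 = 1 ∧
    (∀ k ∈ Subgroup.centralizer ({γ} : Set Co0),
      (∀ v : leechLattice, Cg (γ • v) v → Cg (k • v) v) →
        k ∈ Subgroup.center Co0 ⊔ Subgroup.zpowers γ) ∧
    Nonempty (Subgroup.centralizer ({γ} : Set Co0) ⧸ MonsterCent13.base γ ≃*
      alternatingGroup (Fin 9)) :=
  ⟨_, rfl, el_pow_three, el_faithful, exists_equiv⟩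

theorem conj_sig {π : M24} (h3 : orderOf π.1 = 3) (h0 : (fixedPts π.1).card = 0) :
    ∃ r : M24, r * π * r⁻¹ = fixData.sig := by
  rcases exists_conj_three π.2 h3 with ⟨-, k, hk, hkt⟩ | ⟨h6, -⟩
  swap
  · omega
  rcases exists_conj_three fixData.sig.2 sig_fixed.2 with ⟨-, k', hk', hkt'⟩ | ⟨h6, -⟩
  swap
  · rw [sig_fixed.1] at h6; omega
  refine ⟨⟨k', hk'⟩⁻¹ * ⟨k, hk⟩, Subtype.ext ?_⟩
  have e : k * π.1 * k⁻¹ = k' * fixData.sig.1 * k'⁻¹ := toTab_injective (hkt.trans hkt'.symm)
  show k'⁻¹ * k * π.1 * (k'⁻¹ * k)⁻¹ = fixData.sig.1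
  calc k'⁻¹ * k * π.1 * (k'⁻¹ * k)⁻¹ = k'⁻¹ * (k * π.1 * k⁻¹) * k' := by group
    _ = fixData.sig.1 := by rw [e]; group

theorem factorization_frameStab : (Nat.card frameStab).factorization 3 = 3 := by
  rw [card_frameStab, show (4096 * 244823040 : ℕ) = 3 ^ 3 * (4096 * 9067520) by norm_num,
    Nat.factorization_mul (by norm_num) (by norm_num), Nat.Prime.factorization_pow Nat.prime_three]
  simp [Nat.factorization_eq_zero_of_not_dvd (show ¬ 3 ∣ 4096 * 9067520 by norm_num)]

variable {G : Type*} [Group G] [Finite G] {z : G}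
variable {Q : Subgroup (Subgroup.centralizer ({z} : Set G))} [Q.Normal]
variable {e : (Subgroup.centralizer ({z} : Set G)) ⧸ Q ≃* Spor.Co1}
variable {ψ : leechLattice → Q ⧸ Subgroup.center Q}

theorem stab_map_eq (sq : Q) : (stabQ sq).map (Subgroup.centralizer ({z} : Set G)).subtype =
    Subgroup.centralizer ({z, ((sq : Subgroup.centralizer ({z} : Set G)) : G)} : Set G) := by
  ext x
  constructor
  · rintro ⟨k, hk, rfl⟩
    rw [Subgroup.mem_centralizer_iff]
    rintro y (rfl | rfl)
    · exact Subgroup.mem_centralizer_iff.1 k.2 _ rfl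
    · exact (congrArg Subtype.val (mem_stabQ.1 hk)).symm
  · intro hx
    rw [Subgroup.mem_centralizer_iff] at hx
    refine ⟨⟨x, Subgroup.mem_centralizer_singleton_iff.2 (hx z (Or.inl rfl)).symm⟩,
      mem_stabQ.2 (Subtype.ext (hx _ (Or.inr rfl)).symm), rfl⟩

variable (hc : Ctx z Q e ψ)
include hc

/-- An element over a permutation with six fixed points is central in a Sylow 3-subgroup. -/
theorem exists_central_sylow {sq : Q} (hax : ψ (axisVec none) = QuotientGroup.mk sq)
    {b : Subgroup.centralizer ({z} : Set G)} (hb : b ∈ stabQ sq) (hb3 : b ^ 3 = 1) {γ : Co0}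
    (hγ : Match e b γ) {n : Co0} (hn : n ∈ frameStab) {π : M24} (hπ : n * γ * n⁻¹ = permHom π)
    (S : Subgroup M24) (hS : Nat.card S = 27) (hπS : π ∈ S) (hSc : ∀ x ∈ S, x * π = π * x) :
    ∃ P : Subgroup (Subgroup.centralizer ({z} : Set G)), P ≤ stabQ sq ∧ Nat.card P = 27 ∧
      b ∈ P ∧ ∀ x ∈ P, x * b = b * x := by
  classical
  haveI : Fact (Nat.Prime 3) := ⟨Nat.prime_three⟩
  haveI : Fact (Nat.Prime 2) := ⟨Nat.prime_two⟩
  let cn : M24 →* Co0 := (MulAut.conj n⁻¹).toMonoidHom.comp permHom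
  have hcn : ∀ x, cn x = n⁻¹ * permHom x * n := fun x => by
    show n⁻¹ * permHom x * n⁻¹⁻¹ = _
    rw [inv_inv]
  have hcγ : cn π = γ := by rw [hcn, ← hπ]; group
  let T : Subgroup Spor.Co1 := (S.map cn).map (QuotientGroup.mk' (Subgroup.center Co0))
  let f : stabQ sq →* Spor.Co1 :=
    (e.toMonoidHom.comp (QuotientGroup.mk' Q)).comp (stabQ sq).subtype
  let W : Subgroup (stabQ sq) := T.comap f
  have hTr : T ≤ f.range := by
    rintro _ ⟨_, ⟨x, -, rfl⟩, rfl⟩
    obtain ⟨k, hk, hkm⟩ := Ctx.exists_stab hc hax (γ := cn x) (by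
      rw [hcn]; exact mul_mem (mul_mem (inv_mem hn) (permHom_mem_frameStab x)) hn)
    exact ⟨⟨k, hk⟩, hkm.symm⟩
  have hinj : Function.Injective ((QuotientGroup.mk' (Subgroup.center Co0)).comp cn) := by
    refine (injective_iff_map_eq_one _).2 fun x hx => ?_
    have h1 : cn x ∈ Subgroup.center Co0 := (QuotientGroup.eq_one_iff _).1 hx
    rw [hcn] at h1
    have h2 : permHom x ∈ Subgroup.center Co0 := by
      have := (inferInstance : (Subgroup.center Co0).Normal).conj_mem _ h1 n
      simpa [mul_assoc] using this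
    have hx' : monomial (0, x) = permHom x := by
      show signs 0 _ * permHom x = _
      rw [CfsgLib.Leech.signs_zero, one_mul]
    rcases center_co0_cases h2 with r | r
    · have h3 : monomial (0, x) = monomial (0, 1) := by rw [hx', r, monomial_one]
      exact congrArg Prod.snd (monomial_injective h3)
    · exfalso
      have h3 : monomial (0, x) = monomial (⟨1, one_mem_code⟩, 1) := by
        rw [hx', r]; simp only [monomial, map_one, mul_one]; rfl
      have h4 := congrArg (fun w : golayCode × M24 => w.1.1 none) (monomial_injective h3)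
      simp at h4
  have hT : Nat.card T = 27 := by
    show Nat.card ↥((S.map cn).map _) = 27
    rw [Subgroup.map_map, Subgroup.card_map_of_injective hinj, hS]
  let fW : W →* T :=
    { toFun := fun w => ⟨f w.1, w.2⟩
      map_one' := Subtype.ext (map_one f)
      map_mul' := fun u v => Subtype.ext (map_mul f _ _) }
  have hfW : Function.Surjective fW := fun t => by
    obtain ⟨k, hk⟩ := hTr t.2
    exact ⟨⟨k, by show f k ∈ T; rw [hk]; exact t.2⟩, Subtype.ext hk⟩
  have hker2 : IsPGroup 2 fW.ker := fun k => by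
    have h1 : e (QuotientGroup.mk (k.1.1 : stabQ sq).1) = 1 := congrArg Subtype.val (k.2 : fW k.1 = 1)
    obtain ⟨j, hj⟩ := Ctx.q_two_group hc ⟨_, (QuotientGroup.eq_one_iff _).1
      (e.injective (h1.trans (map_one e).symm))⟩
    exact ⟨j, Subtype.ext (Subtype.ext (Subtype.ext (congrArg Subtype.val hj :)))⟩
  obtain ⟨a, ha⟩ := hker2.exists_card_eq
  have hcardW : Nat.card W = 2 ^ a * 27 := by
    rw [← Subgroup.card_mul_index fW.ker, Subgroup.index_ker, ha,
      MonoidHom.range_eq_top.2 hfW, Subgroup.card_top, hT]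
  have hbW : (⟨b, hb⟩ : stabQ sq) ∈ W := by
    show e (QuotientGroup.mk b) ∈ T
    exact ⟨γ, ⟨π, hπS, hcγ⟩, hγ⟩
  set bW : W := ⟨⟨b, hb⟩, hbW⟩
  have hzp : IsPGroup 3 (Subgroup.zpowers bW) := by
    intro x
    refine ⟨1, ?_⟩
    obtain ⟨m, hm⟩ := Subgroup.mem_zpowers_iff.1 x.2
    refine Subtype.ext ?_
    show (x.1) ^ 3 ^ 1 = 1
    rw [pow_one, ← hm, ← zpow_natCast, ← zpow_mul, mul_comm, zpow_mul, zpow_natCast,
      show bW ^ 3 = 1 from Subtype.ext (Subtype.ext hb3), one_zpow]
  obtain ⟨P, hP⟩ := hzp.exists_le_sylow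
  have hPcard : Nat.card P = 27 := by
    rw [Sylow.card_eq_multiplicity, hcardW, Nat.factorization_mul (by positivity) (by norm_num),
      Nat.prime_two.factorization_pow, show (27 : ℕ) = 3 ^ 3 by norm_num,
      Nat.prime_three.factorization_pow]
    simp
  have hbP : bW ∈ (P : Subgroup W) := hP (Subgroup.mem_zpowers bW)
  refine ⟨((P : Subgroup W).map W.subtype).map (stabQ sq).subtype, Subgroup.map_subtype_le _, ?_,
    ⟨_, ⟨_, hbP, rfl⟩, rfl⟩, ?_⟩
  · rw [Subgroup.card_map_of_injective (Subgroup.subtype_injective _),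
      Subgroup.card_map_of_injective (Subgroup.subtype_injective _), hPcard]
  rintro _ ⟨_, ⟨x, hx, rfl⟩, rfl⟩
  have hcomm : fW x * fW bW = fW bW * fW x := by
    obtain ⟨_, ⟨y, hy, rfl⟩, hyx⟩ := x.2
    refine Subtype.ext ?_
    show f x.1 * f bW.1 = f bW.1 * f x.1
    have hbe : f bW.1 = QuotientGroup.mk' (Subgroup.center Co0) (cn π) := by
      rw [hcγ]; exact hγ.symm
    rw [hbe, show f x.1 = QuotientGroup.mk' (Subgroup.center Co0) (cn y) from hyx.symm, ← map_mul,
      ← map_mul, ← map_mul, ← map_mul, hSc y hy]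
  have hc1 : x * bW * x⁻¹ * bW⁻¹ ∈ fW.ker := by
    rw [MonoidHom.mem_ker, map_mul, map_mul, map_mul, map_inv, map_inv, hcomm]
    group
  have hcP : x * bW * x⁻¹ * bW⁻¹ ∈ (P : Subgroup W) :=
    mul_mem (mul_mem (mul_mem hx hbP) (inv_mem hx)) (inv_mem hbP)
  have hone : x * bW * x⁻¹ * bW⁻¹ = 1 := by
    obtain ⟨i, hi⟩ := hker2 ⟨_, hc1⟩
    obtain ⟨j, hj⟩ := P.2 ⟨_, hcP⟩
    have hi' := congrArg Subtype.val hi
    have hj' := congrArg Subtype.val hj
    simp only [SubmonoidClass.coe_pow, OneMemClass.coe_one] at hi' hj'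
    have := pow_gcd_eq_one.2 ⟨hi', hj'⟩
    rwa [Nat.Coprime.pow _ _ (by norm_num : Nat.Coprime 2 3), pow_one] at this
  have h2 : x * bW = bW * x := mul_inv_eq_iff_eq_mul.1 (mul_inv_eq_one.1 hone)
  exact congrArg (fun w : W => (w.1 : Subgroup.centralizer ({z} : Set G))) h2

/-- The element over which the theorem is read. -/
theorem exists_generator {sq : Q} (hax : ψ (axisVec none) = QuotientGroup.mk sq) (Y : Subgroup G)
    (hY : Y ≤ Subgroup.centralizer ({z, ((sq : Subgroup.centralizer ({z} : Set G)) : G)} : Set G))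
    (hY3 : Nat.card Y = 3)
    (hnc : ∀ P : Sylow 3 ↥(Subgroup.centralizer
        ({z, ((sq : Subgroup.centralizer ({z} : Set G)) : G)} : Set G)),
      ¬ Y.subgroupOf (Subgroup.centralizer
          ({z, ((sq : Subgroup.centralizer ({z} : Set G)) : G)} : Set G)) ≤
        (Subgroup.center ↥(P : Subgroup ↥(Subgroup.centralizer
          ({z, ((sq : Subgroup.centralizer ({z} : Set G)) : G)} : Set G)))).map
          (P : Subgroup ↥(Subgroup.centralizer
          ({z, ((sq : Subgroup.centralizer ({z} : Set G)) : G)} : Set G))).subtype) :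
    ∃ (b : Subgroup.centralizer ({z} : Set G)) (t : Co0), b ^ 3 = 1 ∧
      Match (twistE e t) b fixData.el ∧ Commute b (sq : Subgroup.centralizer ({z} : Set G)) ∧
      Y = Subgroup.zpowers (b : G) := by
  classical
  haveI : Fact (Nat.Prime 3) := ⟨Nat.prime_three⟩
  obtain ⟨y, hy⟩ := (isCyclic_of_prime_card hY3).exists_generator
  obtain ⟨b, hb, hby⟩ : (y : G) ∈ (stabQ sq).map (Subgroup.centralizer ({z} : Set G)).subtype := by
    rw [stab_map_eq]; exact hY y.2
  have hyo : orderOf (y : G) = 3 := by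
    rw [Subgroup.orderOf_coe, orderOf_eq_card_of_forall_mem_zpowers hy, hY3]
  have hY' : Y = Subgroup.zpowers (b : G) := by
    rw [show (b : G) = y from hby]
    refine (Subgroup.eq_of_le_of_card_ge ((Subgroup.zpowers_le).2 y.2) ?_).symm
    rw [hY3, Nat.card_zpowers, hyo]
  have hb3 : b ^ 3 = 1 := Subtype.ext (by
    show (b : G) ^ 3 = 1
    rw [show (b : G) = y from hby, ← hyo, pow_orderOf_eq_one])
  obtain ⟨γ, hγ, hγ3⟩ := exists_match_pow (e := e) (by decide : Odd 3) hb3
  have hγF : γ ∈ frameStab := Ctx.match_frameStab hc hax hb hγ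
  obtain ⟨n, hn, hnπ⟩ := frame_conj_perm Nat.prime_three (by norm_num) hγF hγ3
  set π := framePart ⟨γ, hγF⟩
  have hb1 : b ≠ 1 := fun h => by
    rw [← show (b : G) = y from hby, h, OneMemClass.coe_one, orderOf_one] at hyo
    omega
  have hπ3 : orderOf π.1 = 3 := by
    rw [Subgroup.orderOf_coe]
    refine orderOf_eq_prime ?_ fun h => hb1 ?_
    · rw [← map_pow, show (⟨γ, hγF⟩ : frameStab) ^ 3 = 1 from Subtype.ext hγ3, map_one]
    · rw [h, map_one, conj_eq_one_iff] at hnπ
      rw [hnπ] at hγ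
      have hbQ : b ∈ Q := by
        rw [← QuotientGroup.eq_one_iff]
        exact e.injective (by rw [map_one, ← hγ]; rfl)
      obtain ⟨j, hj⟩ := Ctx.q_two_group hc ⟨b, hbQ⟩
      have hj' : b ^ 2 ^ j = 1 := congrArg Subtype.val hj
      have := pow_gcd_eq_one.2 ⟨hj', hb3⟩
      rwa [Nat.Coprime.pow_left _ (by norm_num : Nat.Coprime 2 3), pow_one] at this
  by_cases h0 : (fixedPts π.1).card = 0
  · obtain ⟨r, hr⟩ := conj_sig hπ3 h0
    refine ⟨b, permHom r * n, hb3, ?_, mem_stabQ.1 hb, hY'⟩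
    rw [match_twist]
    convert hγ using 1
    rw [show fixData.el = permHom fixData.sig from rfl, ← hr, map_mul, map_mul, map_inv, ← hnπ]
    group
  · exfalso
    have h6 : (fixedPts π.1).card = 6 := by
      rcases exists_conj_three π.2 hπ3 with ⟨h, -⟩ | ⟨h, -⟩
      · exact absurd h h0
      · exact h
    obtain ⟨S, hS, hπS, hSc⟩ := exists_central_27 hπ3 h6
    obtain ⟨P, hPle, hPc, hbP, hcen⟩ :=
      exists_central_sylow hc hax hb hb3 hγ hn hnπ S hS hπS hSc
    set L := Subgroup.centralizer ({z, ((sq : Subgroup.centralizer ({z} : Set G)) : G)} : Set G)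
      with hL
    set P' := (P.map (Subgroup.centralizer ({z} : Set G)).subtype).subgroupOf L
    have hle : P.map (Subgroup.centralizer ({z} : Set G)).subtype ≤ L := by
      rw [hL, ← stab_map_eq sq]; exact Subgroup.map_mono hPle
    have hfac : (Nat.card L).factorization 3 = 3 := by
      rw [hL, ← stab_map_eq sq, Subgroup.card_map_of_injective (Subgroup.subtype_injective _),
        Ctx.card_stab_factorization hc hax Nat.prime_three (by norm_num), factorization_frameStab]
    have hP' : Nat.card P' = 3 ^ (Nat.card L).factorization 3 := by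
      rw [hfac, Nat.card_congr (Subgroup.subgroupOfEquivOfLe hle).toEquiv,
        Subgroup.card_map_of_injective (Subgroup.subtype_injective _), hPc]
      norm_num
    refine hnc (Sylow.ofCard P' hP') fun u hu => ?_
    rw [Sylow.coe_ofCard]
    have hu' : (u : G) ∈ Subgroup.zpowers (b : G) := hY' ▸ hu
    obtain ⟨m, hm⟩ := Subgroup.mem_zpowers_iff.1 hu'
    have huP : u ∈ P' := ⟨b ^ m, zpow_mem hbP m, by simp [hm]⟩
    refine ⟨⟨u, huP⟩, Subgroup.mem_center_iff.2 fun w => ?_, rfl⟩
    obtain ⟨x, hx, hxw⟩ := w.2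
    refine Subtype.ext (Subtype.ext ?_)
    show (w.1 : G) * (u : G) = (u : G) * (w.1 : G)
    rw [← hm, ← show (x : G) = (w.1 : G) from hxw]
    have hcm : Commute (x : G) (b : G) := congrArg Subtype.val (hcen x hx)
    exact (hcm.zpow_right m).eq

end CfsgLib.MonsterCent.Three
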